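import Mathlib
import Cfsg.Agent.Lib.H64.TwoOrbits
set_option autoImplicit false
set_option linter.unusedSectionVars false

/-!
Symmetric designs admitting a group which is 2-transitive on points, and the elements fixing a
block pointwise (Ito's theorem, reduced to O'Nan's theorem).
-/

namespace H8.Ito
open MulAction Finset

section design
variable {X Ω : Type*} [Fintype X] [Fintype Ω] [DecidableEq X] [DecidableEq Ω]

/-- The points of a block. -/
def pts (I : X → Ω → Prop) [∀ x ω, Decidable (I x ω)] (x : X) : Finset Ω := univ.filter (fun ω => I x ω)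
/-- The blocks through a point. -/
def blk (I : X → Ω → Prop) [∀ x ω, Decidable (I x ω)] (ω : Ω) : Finset X := univ.filter (fun x => I x ω)

variable (I : X → Ω → Prop) [∀ x ω, Decidable (I x ω)]

@[simp] theorem mem_pts {x : X} {ω : Ω} : ω ∈ pts I x ↔ I x ω := by simp [pts]
@[simp] theorem mem_blk {x : X} {ω : Ω} : x ∈ blk I ω ↔ I x ω := by simp [blk]

/-- A square 2-design. -/
structure Des (k l : ℕ) : Prop where
  card : Fintype.card X = Fintype.card Ω
  bk : ∀ x, (pts I x).card = k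
  pk : ∀ ω, (blk I ω).card = k
  pl : ∀ ω ω', ω ≠ ω' → (blk I ω ∩ blk I ω').card = l
  k2 : 2 ≤ k
  kv : k + 2 ≤ Fintype.card Ω

variable {I} {k l : ℕ}

theorem Des.count (D : Des I k l) : l * (Fintype.card Ω - 1) = k * (k - 1) := by
  classical
  have hne : Nonempty Ω := by
    have := D.kv
    exact Fintype.card_pos_iff.1 (by omega)
  obtain ⟨a⟩ := hne
  -- count pairs (ω, x) with ω ≠ a, both in x
  have h1 : ∑ ω ∈ univ.erase a, (blk I a ∩ blk I ω).card = l * (Fintype.card Ω - 1) := by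
    rw [Finset.sum_congr rfl (fun ω hω => D.pl a ω (Finset.ne_of_mem_erase hω).symm), Finset.sum_const,
      Finset.card_erase_of_mem (mem_univ _), Finset.card_univ, smul_eq_mul, mul_comm]
  have h2 : ∑ x ∈ blk I a, ((pts I x).erase a).card = k * (k - 1) := by
    have : ∀ x ∈ blk I a, ((pts I x).erase a).card = k - 1 := by
      intro x hx
      rw [Finset.card_erase_of_mem (by simpa using hx), D.bk]
    rw [Finset.sum_congr rfl this, Finset.sum_const, D.pk, smul_eq_mul]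
  rw [← h1, ← h2]
  simp only [Finset.card_eq_sum_ones]
  rw [Finset.sum_sigma', Finset.sum_sigma']
  refine Finset.sum_bij' (fun p _ => ⟨p.2, p.1⟩) (fun p _ => ⟨p.2, p.1⟩) ?_ ?_ ?_ ?_ ?_
  · rintro ⟨ω, x⟩ h; simp at h ⊢; tauto
  · rintro ⟨x, ω⟩ h; simp at h ⊢; tauto
  · rintro ⟨ω, x⟩ h; rfl
  · rintro ⟨x, ω⟩ h; rfl
  · rintro ⟨ω, x⟩ h; rfl

theorem Des.lt (D : Des I k l) : l < k := by
  have h1 := D.count
  have h2 := D.k2
  have h3 := D.kv
  by_contra h
  push Not at h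
  have : k * (Fintype.card Ω - 1) ≤ k * (k - 1) := by
    calc k * (Fintype.card Ω - 1) ≤ l * (Fintype.card Ω - 1) := Nat.mul_le_mul_right _ h
      _ = _ := h1
  have := Nat.le_of_mul_le_mul_left this (by omega)
  omega

theorem Des.two_le (D : Des I k l) : l + 2 ≤ k := by
  have h0 := D.lt
  have h1 := D.count
  have h2 := D.k2
  have h3 := D.kv
  by_contra h
  have hk : k = l + 1 := by omega
  obtain ⟨w, hw⟩ : ∃ w, Fintype.card Ω = k + 2 + w := ⟨_, (Nat.add_sub_cancel' h3).symm⟩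
  obtain ⟨j, hj⟩ : ∃ j, l = j + 1 := ⟨l - 1, by omega⟩
  subst hj
  rw [hw, hk] at h1
  simp only [Nat.add_sub_cancel] at h1
  have e1 : j + 1 + 1 + 2 + w - 1 = j + 3 + w := by omega
  rw [e1] at h1
  nlinarith

theorem Des.l_pos (D : Des I k l) : 0 < l := by
  have h1 := D.count
  have h2 := D.k2
  by_contra h
  have : l = 0 := by omega
  subst this
  rw [zero_mul] at h1
  have : 0 < k * (k - 1) := Nat.mul_pos (by omega) (by omega)
  omega

/-- The incidence matrix transposed is injective. -/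
theorem Des.inj (D : Des I k l) (f : Ω → ℚ) (h : ∀ x, ∑ ω ∈ pts I x, f ω = 0) : f = 0 := by
  classical
  have hlt := D.lt
  have h2 := D.k2
  have h1 : ∀ a, ((k : ℚ) - l) * f a + l * ∑ ω, f ω = 0 := by
    intro a
    have h3 : ∑ x ∈ blk I a, ∑ ω ∈ pts I x, f ω = 0 := Finset.sum_eq_zero (fun x _ => h x)
    have h4 : ∑ x ∈ blk I a, ∑ ω ∈ pts I x, f ω = ∑ ω, ((blk I a ∩ blk I ω).card : ℚ) * f ω := by
      have : ∀ x, ∑ ω ∈ pts I x, f ω = ∑ ω, if I x ω then f ω else 0 := by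
        intro x; rw [← Finset.sum_filter]; rfl
      simp only [this]
      rw [Finset.sum_comm]
      refine Finset.sum_congr rfl fun ω _ => ?_
      rw [← Finset.sum_filter, Finset.sum_const, nsmul_eq_mul]
      have h9 : (blk I a).filter (fun x => I x ω) = blk I a ∩ blk I ω := by ext x; simp
      rw [h9]
    rw [h4, ← Finset.add_sum_erase _ _ (mem_univ a)] at h3
    have h5 : ∑ ω ∈ univ.erase a, ((blk I a ∩ blk I ω).card : ℚ) * f ω = l * (∑ ω, f ω - f a) := by
      rw [Finset.sum_congr rfl (fun ω hω => by rw [D.pl a ω (Finset.ne_of_mem_erase hω).symm]), ← Finset.mul_sum]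
      congr 1
      rw [← Finset.add_sum_erase _ _ (mem_univ a)]; ring
    rw [h5, Finset.inter_self, D.pk] at h3
    linear_combination h3
  have hs : ∑ ω, f ω = 0 := by
    have h6 : ∑ a, (((k : ℚ) - l) * f a + l * ∑ ω, f ω) = 0 := Finset.sum_eq_zero (fun a _ => h1 a)
    rw [Finset.sum_add_distrib, ← Finset.mul_sum, Finset.sum_const, Finset.card_univ, nsmul_eq_mul] at h6
    have h7 : ((k : ℚ) - l + Fintype.card Ω * l) * ∑ ω, f ω = 0 := by linear_combination h6
    rcases mul_eq_zero.1 h7 with h8 | h8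
    · exfalso
      have : (l : ℚ) < k := by exact_mod_cast hlt
      have : (0 : ℚ) ≤ (Fintype.card Ω : ℚ) * l := by positivity
      linarith
    · exact h8
  funext a
  have := h1 a
  rw [hs, mul_zero, add_zero] at this
  rcases mul_eq_zero.1 this with h8 | h8
  · exfalso
    have : (l : ℚ) < k := by exact_mod_cast hlt
    linarith
  · exact h8

/-- The incidence matrix. -/
noncomputable def mat (I : X → Ω → Prop) [∀ x ω, Decidable (I x ω)] (e : X ≃ Ω) : Matrix Ω Ω ℚ :=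
  fun y ω => if I (e.symm y) ω then 1 else 0

theorem Des.isUnit (D : Des I k l) (e : X ≃ Ω) : IsUnit (mat I e) := by
  rw [← Matrix.mulVec_injective_iff_isUnit]
  intro u v huv
  have h0 : (mat I e).mulVec (u - v) = 0 := by rw [Matrix.mulVec_sub, huv, sub_self]
  have h1 : u - v = 0 := by
    refine D.inj (u - v) fun x => ?_
    have := congrFun h0 (e x)
    simp only [Matrix.mulVec, dotProduct, mat, Equiv.symm_apply_apply, Pi.zero_apply, ite_mul, one_mul, zero_mul] at this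
    rw [← Finset.sum_filter] at this
    exact this
  exact sub_eq_zero.1 h1

/-- The incidence matrix is injective. -/
theorem Des.inj' (D : Des I k l) (f : X → ℚ) (h : ∀ ω, ∑ x ∈ blk I ω, f x = 0) : f = 0 := by
  classical
  let e : X ≃ Ω := Fintype.equivOfCardEq D.card
  have h1 := D.isUnit e
  rw [← Matrix.vecMul_injective_iff_isUnit] at h1
  have h2 : (fun y => f (e.symm y)) = 0 := by
    apply h1
    show Matrix.vecMul (fun y => f (e.symm y)) (mat I e) = Matrix.vecMul 0 (mat I e)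
    rw [Matrix.zero_vecMul]
    funext ω
    simp only [Matrix.vecMul, dotProduct, mat, Pi.zero_apply, mul_ite, mul_one, mul_zero]
    rw [← Equiv.sum_comp e]
    simp only [Equiv.symm_apply_apply]
    rw [← Finset.sum_filter]
    exact h ω
  funext x
  have := congrFun h2 (e x)
  simpa using this

/-- Two different blocks meet in `l` points. -/
theorem Des.bl (D : Des I k l) (x x' : X) (hx : x ≠ x') : (pts I x ∩ pts I x').card = l := by
  classical
  have hlt := D.lt
  have h2 := D.k2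
  -- the function x ↦ |pts x ∩ pts x'| - (k-l) δ - l is killed by the matrix
  have h1 : (fun y => ((pts I y ∩ pts I x').card : ℚ) - (if y = x' then ((k : ℚ) - l) else 0) - l) = 0 := by
    apply D.inj'
    intro ω
    have e1 : ∑ y ∈ blk I ω, ((pts I y ∩ pts I x').card : ℚ) = ∑ τ ∈ pts I x', ((blk I ω ∩ blk I τ).card : ℚ) := by
      rw [← Nat.cast_sum, ← Nat.cast_sum]
      congr 1
      simp only [Finset.card_eq_sum_ones]
      rw [Finset.sum_sigma', Finset.sum_sigma']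
      refine Finset.sum_bij' (fun p _ => ⟨p.2, p.1⟩) (fun p _ => ⟨p.2, p.1⟩) ?_ ?_ ?_ ?_ ?_
      · rintro ⟨ω, x⟩ h; simp at h ⊢; tauto
      · rintro ⟨x, ω⟩ h; simp at h ⊢; tauto
      · rintro ⟨ω, x⟩ h; rfl
      · rintro ⟨x, ω⟩ h; rfl
      · rintro ⟨ω, x⟩ h; rfl
    have e2 : ∑ τ ∈ pts I x', ((blk I ω ∩ blk I τ).card : ℚ) = ∑ τ ∈ pts I x', ((if τ = ω then ((k : ℚ) - l) else 0) + l) := by
      refine Finset.sum_congr rfl fun τ _ => ?_
      split_ifs with h
      · rw [h, Finset.inter_self, D.pk]; ring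
      · rw [D.pl _ _ (Ne.symm h)]; ring
    rw [Finset.sum_sub_distrib, Finset.sum_sub_distrib, e1, e2, Finset.sum_add_distrib, Finset.sum_const,
      Finset.sum_const, D.bk, D.pk, Finset.sum_ite_eq', Finset.sum_ite_eq']
    simp only [mem_pts, mem_blk]
    ring
  have := congrFun h1 x
  simp only [if_neg hx, Pi.zero_apply, sub_zero] at this
  have h3 : ((pts I x ∩ pts I x').card : ℚ) = l := by linarith
  exact_mod_cast h3

end design

section act
variable {G X Ω : Type*} [Group G] [MulAction G X] [MulAction G Ω] [Fintype X] [Fintype Ω] [DecidableEq X] [DecidableEq Ω]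
variable (I : X → Ω → Prop) [∀ x ω, Decidable (I x ω)]

variable {I} {k l : ℕ}

theorem pts_smul (hI : ∀ (g : G) x ω, I (g • x) (g • ω) ↔ I x ω) (g : G) (x : X) :
    pts I (g • x) = (pts I x).image (fun ω => g • ω) := by
  ext ω
  simp only [mem_pts, Finset.mem_image]
  constructor
  · intro h
    refine ⟨g⁻¹ • ω, ?_, smul_inv_smul _ _⟩
    rw [← hI g, smul_inv_smul]; exact h
  · rintro ⟨τ, h, rfl⟩
    rw [hI]; exact h

theorem blk_smul (hI : ∀ (g : G) x ω, I (g • x) (g • ω) ↔ I x ω) (g : G) (ω : Ω) :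
    blk I (g • ω) = (blk I ω).image (fun x => g • x) := by
  ext x
  simp only [mem_blk, Finset.mem_image]
  constructor
  · intro h
    refine ⟨g⁻¹ • x, ?_, smul_inv_smul _ _⟩
    rw [← hI g, smul_inv_smul]; exact h
  · rintro ⟨τ, h, rfl⟩
    rw [hI]; exact h

/-- A 2-transitive group on points gives a design. -/
theorem exists_des (hI : ∀ (g : G) x ω, I (g • x) (g • ω) ↔ I x ω)
    (hcard : Fintype.card X = Fintype.card Ω)
    (hX : ∀ x x' : X, ∃ g : G, g • x = x')
    (h1 : ∀ a b : Ω, ∃ g : G, g • a = b)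
    (h2 : ∀ a b a' b' : Ω, a ≠ b → a' ≠ b' → ∃ g : G, g • a = a' ∧ g • b = b')
    (x₀ : X) (hk2 : 2 ≤ (pts I x₀).card) (hkv : (pts I x₀).card + 2 ≤ Fintype.card Ω) :
    ∃ l, Des I (pts I x₀).card l := by
  classical
  set k := (pts I x₀).card with hk
  have bk : ∀ x, (pts I x).card = k := by
    intro x
    obtain ⟨g, rfl⟩ := hX x₀ x
    rw [pts_smul hI, Finset.card_image_of_injective _ (MulAction.injective g)]
  have hne : Nonempty Ω := Fintype.card_pos_iff.1 (by omega)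
  obtain ⟨a⟩ := hne
  have pk0 : ∀ ω, (blk I ω).card = (blk I a).card := by
    intro ω
    obtain ⟨g, rfl⟩ := h1 a ω
    rw [blk_smul hI, Finset.card_image_of_injective _ (MulAction.injective g)]
  have pk1 : (blk I a).card = k := by
    have e1 : ∑ ω, (blk I ω).card = ∑ x, (pts I x).card := by
      simp only [Finset.card_eq_sum_ones]
      rw [Finset.sum_sigma', Finset.sum_sigma']
      refine Finset.sum_bij' (fun p _ => ⟨p.2, p.1⟩) (fun p _ => ⟨p.2, p.1⟩) ?_ ?_ ?_ ?_ ?_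
      · rintro ⟨ω, x⟩ h; simp at h ⊢; tauto
      · rintro ⟨x, ω⟩ h; simp at h ⊢; tauto
      · rintro ⟨ω, x⟩ h; rfl
      · rintro ⟨x, ω⟩ h; rfl
      · rintro ⟨ω, x⟩ h; rfl
    rw [Finset.sum_congr rfl (fun ω _ => pk0 ω), Finset.sum_congr rfl (fun x _ => bk x), Finset.sum_const,
      Finset.sum_const, Finset.card_univ, Finset.card_univ, hcard, smul_eq_mul, smul_eq_mul] at e1
    exact Nat.eq_of_mul_eq_mul_left (by omega) e1
  obtain ⟨b, hb⟩ : ∃ b, b ≠ a := by
    have : 1 < Fintype.card Ω := by omega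
    exact Fintype.exists_ne_of_one_lt_card this a
  refine ⟨(blk I a ∩ blk I b).card, ⟨hcard, bk, fun ω => (pk0 ω).trans pk1, ?_, hk2, hkv⟩⟩
  intro ω ω' hω
  obtain ⟨g, rfl, rfl⟩ := h2 a b ω ω' hb.symm hω
  rw [blk_smul hI, blk_smul hI, ← Finset.image_inter _ _ (MulAction.injective g),
    Finset.card_image_of_injective _ (MulAction.injective g)]

/-- blocks moved by an element fixing a block pointwise. -/
theorem Des.moved (D : Des I k l) (hI : ∀ (g : G) x ω, I (g • x) (g • ω) ↔ I x ω) {x₀ : X} {y : G}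
    (hy0 : y • x₀ = x₀) (hy : ∀ ω, I x₀ ω → y • ω = ω) {C : X} (hC : y • C ≠ C) :
    pts I C ∩ pts I (y • C) = pts I C ∩ pts I x₀ := by
  symm
  apply Finset.eq_of_subset_of_card_le
  · intro ω hω
    simp only [Finset.mem_inter, mem_pts] at hω ⊢
    refine ⟨hω.1, ?_⟩
    have := (hI y C ω).2 hω.1
    rw [hy ω hω.2] at this
    exact this
  · rw [D.bl _ _ hC.symm, D.bl C x₀ (by rintro rfl; exact hC hy0)]

theorem Des.not_inc (D : Des I k l) (hI : ∀ (g : G) x ω, I (g • x) (g • ω) ↔ I x ω) {x₀ : X} {y : G}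
    (hy0 : y • x₀ = x₀) (hy : ∀ ω, I x₀ ω → y • ω = ω) {C : X} (hC : y • C ≠ C) {a : Ω} (haC : I C a)
    (ha : y • a ≠ a) : ¬ I C (y • a) := by
  intro h
  have h1 : y • a ∈ pts I C ∩ pts I (y • C) := by
    simp only [Finset.mem_inter, mem_pts]
    exact ⟨h, (hI _ _ _).2 haC⟩
  rw [D.moved hI hy0 hy hC] at h1
  simp only [Finset.mem_inter, mem_pts] at h1
  have h2 := hy _ h1.2
  exact ha (MulAction.injective y h2)

/-- The blocks through a moved point which are moved. -/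
theorem Des.two_moved (D : Des I k l) (hI : ∀ (g : G) x ω, I (g • x) (g • ω) ↔ I x ω) {y : G}
    {a : Ω} (ha : y • a ≠ a) : ∃ C C' : X, C ≠ C' ∧ I C a ∧ I C' a ∧ y • C ≠ C ∧ y • C' ≠ C' := by
  have h1 : 2 ≤ (blk I a \ blk I (y • a)).card := by
    have := Finset.card_sdiff_add_card_inter (blk I a) (blk I (y • a))
    rw [D.pk, D.pl _ _ ha.symm] at this
    have := D.two_le
    omega
  obtain ⟨C, hC, C', hC', hne⟩ := Finset.one_lt_card.1 h1
  simp only [Finset.mem_sdiff, mem_blk] at hC hC'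
  refine ⟨C, C', hne, hC.1, hC'.1, ?_, ?_⟩
  · intro h
    apply hC.2
    have := (hI y C a).2 hC.1
    rwa [h] at this
  · intro h
    apply hC'.2
    have := (hI y C' a).2 hC'.1
    rwa [h] at this

/-- An element fixing two blocks pointwise is trivial. -/
theorem Des.ti (D : Des I k l) (hI : ∀ (g : G) x ω, I (g • x) (g • ω) ↔ I x ω) {x₀ x₁ : X} (hne : x₀ ≠ x₁) {y : G}
    (hy0 : y • x₀ = x₀) (hy : ∀ ω, I x₀ ω → y • ω = ω) (hy0' : y • x₁ = x₁) (hy' : ∀ ω, I x₁ ω → y • ω = ω)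
    (a : Ω) : y • a = a := by
  by_contra ha
  obtain ⟨C, C', hCC, hCa, hCa', hC, hC'⟩ := D.two_moved hI ha
  have key : ∀ C, y • C ≠ C → pts I x₀ ∩ pts I x₁ ⊆ pts I C := by
    intro C hC
    have e1 := D.moved hI hy0 hy hC
    have e2 := D.moved hI hy0' hy' hC
    have e3 : pts I C ∩ pts I x₀ ⊆ pts I x₀ ∩ pts I x₁ := by
      intro ω hω
      have hω' : ω ∈ pts I C ∩ pts I x₁ := by rw [← e2, e1]; exact hω
      simp only [Finset.mem_inter] at hω hω' ⊢
      exact ⟨hω.2, hω'.2⟩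
    have e4 : pts I C ∩ pts I x₀ = pts I x₀ ∩ pts I x₁ := by
      apply Finset.eq_of_subset_of_card_le e3
      rw [D.bl _ _ hne, D.bl C x₀ (by rintro rfl; exact hC hy0)]
    rw [← e4]
    exact Finset.inter_subset_left
  have h1 : pts I x₀ ∩ pts I x₁ = pts I C ∩ pts I C' := by
    apply Finset.eq_of_subset_of_card_le
    · intro ω hω
      exact Finset.mem_inter.2 ⟨key C hC hω, key C' hC' hω⟩
    · rw [D.bl _ _ hne, D.bl _ _ hCC]
  have h2 : a ∈ pts I C ∩ pts I C' := by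
    simp only [Finset.mem_inter, mem_pts]
    exact ⟨hCa, hCa'⟩
  rw [← h1] at h2
  simp only [Finset.mem_inter, mem_pts] at h2
  exact ha (hy _ h2.1)

theorem Des.exists_fixed (D : Des I k l) (hI : ∀ (g : G) x ω, I (g • x) (g • ω) ↔ I x ω) {x₀ : X} {y : G}
    (hy0 : y • x₀ = x₀) (hy : ∀ ω, I x₀ ω → y • ω = ω) {a : Ω} (ha : y • a ≠ a) :
    ∃ x, x ≠ x₀ ∧ y • x = x := by
  have h1 : 0 < (blk I a ∩ blk I (y • a)).card := by
    rw [D.pl _ _ ha.symm]; exact D.l_pos
  obtain ⟨C, hC⟩ := Finset.card_pos.1 h1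
  simp only [Finset.mem_inter, mem_blk] at hC
  refine ⟨C, ?_, ?_⟩
  · rintro rfl
    exact ha (hy _ hC.1)
  · by_contra h
    exact D.not_inc hI hy0 hy h hC.1 ha hC.2

theorem Des.faithful (D : Des I k l) (hI : ∀ (g : G) x ω, I (g • x) (g • ω) ↔ I x ω) {g : G}
    (hg : ∀ x : X, g • x = x) (a : Ω) : g • a = a := by
  by_contra ha
  obtain ⟨C, C', hCC, hCa, hCa', hC, hC'⟩ := D.two_moved hI ha
  exact hC (hg C)

/-- the group is 2-transitive on blocks -/
theorem Des.trans (D : Des I k l) (hI : ∀ (g : G) x ω, I (g • x) (g • ω) ↔ I x ω) (x₀ : X)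
    (ho : ∀ a b, (I x₀ a ↔ I x₀ b) → ∃ g : G, g • x₀ = x₀ ∧ g • a = b)
    (x x' : X) (hx : x ≠ x₀) (hx' : x' ≠ x₀) : ∃ g : G, g • x₀ = x₀ ∧ g • x = x' := by
  classical
  have hlt := D.lt
  have h2 := D.k2
  have h3 := D.kv
  let O : Finset X := univ.filter (fun z => ∃ g : G, g • x₀ = x₀ ∧ g • x = z)
  have hO : ∀ z, z ∈ O ↔ ∃ g : G, g • x₀ = x₀ ∧ g • x = z := by simp [O]
  let f : Ω → ℕ := fun ω => (blk I ω ∩ O).card
  have hf : ∀ a b, (I x₀ a ↔ I x₀ b) → f a = f b := by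
    intro a b hab
    obtain ⟨g, hg0, hg⟩ := ho a b hab
    have : blk I b ∩ O = (blk I a ∩ O).image (fun z => g • z) := by
      ext z
      simp only [Finset.mem_inter, Finset.mem_image, mem_blk, hO]
      constructor
      · rintro ⟨h4, s, hs0, hs⟩
        refine ⟨g⁻¹ • z, ⟨?_, g⁻¹ * s, ?_, ?_⟩, smul_inv_smul _ _⟩
        · rw [← hI g, smul_inv_smul, hg]; exact h4
        · rw [mul_smul, hs0, inv_smul_eq_iff, hg0]
        · rw [mul_smul, hs]
      · rintro ⟨w, ⟨h4, s, hs0, hs⟩, rfl⟩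
        refine ⟨?_, g * s, ?_, ?_⟩
        · rw [← hg, hI]; exact h4
        · rw [mul_smul, hs0, hg0]
        · rw [mul_smul, hs]
    show (blk I a ∩ O).card = (blk I b ∩ O).card
    rw [this, Finset.card_image_of_injective _ (MulAction.injective g)]
  obtain ⟨a, ha⟩ : ∃ a, I x₀ a := by
    have : 0 < (pts I x₀).card := by rw [D.bk]; omega
    obtain ⟨a, ha⟩ := Finset.card_pos.1 this
    exact ⟨a, by simpa using ha⟩
  obtain ⟨b, hb⟩ : ∃ b, ¬ I x₀ b := by
    by_contra h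
    push Not at h
    have : pts I x₀ = univ := by ext ω; simp [h ω]
    have h5 := D.bk x₀
    rw [this, Finset.card_univ] at h5
    omega
  have hk0 : (k : ℚ) ≠ 0 := by
    have : 0 < k := by omega
    exact_mod_cast this.ne'
  have h4 : (fun z : X => (if z ∈ O then (1 : ℚ) else 0) - ((f a : ℚ) - f b) * (if z = x₀ then 1 else 0) - (f b : ℚ) / k) = 0 := by
    apply D.inj'
    intro ω
    rw [Finset.sum_sub_distrib, Finset.sum_sub_distrib, Finset.sum_const, D.pk, ← Finset.mul_sum, Finset.sum_ite_eq',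
      nsmul_eq_mul, mul_div_cancel₀ _ hk0]
    have e1 : ∑ z ∈ blk I ω, (if z ∈ O then (1 : ℚ) else 0) = f ω := by
      rw [← Finset.sum_filter, Finset.sum_const, nsmul_eq_mul, mul_one]
      show _ = (((blk I ω ∩ O).card : ℕ) : ℚ)
      congr 2
    rw [e1]
    by_cases h : I x₀ ω
    · rw [if_pos (by simpa using h), hf ω a (by simp [h, ha])]; ring
    · rw [if_neg (by simpa using h), hf ω b (by simp [h, hb])]; ring
  have h5 := congrFun h4 x
  have h6 := congrFun h4 x'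
  simp only [if_neg hx, if_neg hx', Pi.zero_apply, mul_zero, sub_zero] at h5 h6
  have hxO : x ∈ O := by rw [hO]; exact ⟨1, one_smul _ _, one_smul _ _⟩
  rw [if_pos hxO] at h5
  by_contra hcon
  have hx'O : x' ∉ O := by rw [hO]; exact hcon
  rw [if_neg hx'O] at h6
  linarith

end act

section main
variable {G Ω : Type*} [Group G] [Finite G] [MulAction G Ω] [FaithfulSMul G Ω] [Finite Ω]

/-- The pointwise stabilizer in `H` of the orbit of `a`. -/
def ker (H : Subgroup G) (a : Ω) : Subgroup G where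
  carrier := {g | g ∈ H ∧ ∀ b ∈ orbit H a, g • b = b}
  one_mem' := ⟨one_mem _, fun b _ => one_smul _ b⟩
  mul_mem' := by
    rintro x y ⟨hx, hx'⟩ ⟨hy, hy'⟩
    exact ⟨mul_mem hx hy, fun b hb => by rw [mul_smul, hy' b hb, hx' b hb]⟩
  inv_mem' := by
    rintro x ⟨hx, hx'⟩
    exact ⟨inv_mem hx, fun b hb => by rw [inv_smul_eq_iff, hx' b hb]⟩

theorem mem_ker {H : Subgroup G} {a : Ω} {g : G} : g ∈ ker H a ↔ g ∈ H ∧ ∀ b ∈ orbit H a, g • b = b := Iff.rfl

theorem smul_mem_orb {H : Subgroup G} {a b : Ω} {g : G} (hg : g ∈ H) : g • b ∈ orbit H a ↔ b ∈ orbit H a := by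
  constructor
  · rintro ⟨s, hs⟩
    refine ⟨(⟨g, hg⟩ : H)⁻¹ * s, ?_⟩
    simp only at hs ⊢
    rw [mul_smul, hs, inv_smul_eq_iff]; rfl
  · rintro ⟨s, rfl⟩
    exact ⟨⟨g, hg⟩ * s, mul_smul _ _ _⟩

/-- The situation of Ito's theorem yields the situation of O'Nan's theorem, on the cosets of `H`. -/
theorem onan_data (h2 : IsMultiplyPretransitive G Ω 2) (H : Subgroup G) (hidx : H.index = Nat.card Ω)
    (hnt : ¬ IsPretransitive H Ω) (hfix : ∀ a : Ω, ∃ h : H, h • a ≠ a)
    (hunf : ∃ a : Ω, ∃ h : H, h ≠ 1 ∧ ∀ b ∈ orbit H a, h • b = b) :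
    FaithfulSMul G (G ⧸ H) ∧ IsMultiplyPretransitive G (G ⧸ H) 2 ∧ ∃ (x : G ⧸ H) (N : Subgroup G),
      N ≤ stabilizer G x ∧ (∀ g ∈ stabilizer G x, ∀ n ∈ N, g * n * g⁻¹ ∈ N) ∧
      (∀ g : G, N.map (MulAut.conj g).toMonoidHom = N ∨ N.map (MulAut.conj g).toMonoidHom ⊓ N = ⊥) ∧
      (∃ n ∈ N, n ≠ 1 ∧ ∃ y : G ⧸ H, y ≠ x ∧ n • y = y) := by
  classical
  obtain ⟨a, h₀, hh₀, hh₀'⟩ := hunf
  have : Fintype Ω := Fintype.ofFinite Ω
  have : Fintype (G ⧸ H) := Fintype.ofFinite _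
  have h2' : ∀ a b a' b' : Ω, a ≠ b → a' ≠ b' → ∃ g : G, g • a = a' ∧ g • b = b' :=
    fun a b a' b' h h' => is_two_pretransitive_iff.mp h2 h h'
  have h1' : ∀ a b : Ω, ∃ g : G, g • a = b := by
    have : IsPretransitive G Ω := isPretransitive_of_is_two_pretransitive
    exact fun a b => exists_smul_eq G a b
  let I : G ⧸ H → Ω → Prop := fun x ω => ∃ g : G, (g : G ⧸ H) = x ∧ ∃ b ∈ orbit H a, g • b = ω
  have hI : ∀ (g : G) (x : G ⧸ H) (ω : Ω), I (g • x) (g • ω) ↔ I x ω := by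
    have h : ∀ (g : G) (x : G ⧸ H) (ω : Ω), I x ω → I (g • x) (g • ω) := by
      rintro g x ω ⟨s, rfl, b, hb, rfl⟩
      exact ⟨g * s, rfl, b, hb, mul_smul _ _ _⟩
    intro g x ω
    refine ⟨fun h' => ?_, h g x ω⟩
    have := h g⁻¹ _ _ h'
    rwa [inv_smul_smul, inv_smul_smul] at this
  have hI1 : ∀ ω, I ((1 : G) : G ⧸ H) ω ↔ ω ∈ orbit H a := by
    intro ω
    constructor
    · rintro ⟨g, hg, b, hb, rfl⟩
      have hg' : g ∈ H := by
        rw [QuotientGroup.eq] at hg
        simpa using hg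
      exact (smul_mem_orb hg').2 hb
    · intro h
      exact ⟨1, rfl, ω, h, one_smul _ _⟩
  have hXt : ∀ x x' : G ⧸ H, ∃ g : G, g • x = x' := fun x x' => exists_smul_eq G x x'
  have hcard : Fintype.card (G ⧸ H) = Fintype.card Ω := by
    rw [← Nat.card_eq_fintype_card, ← Nat.card_eq_fintype_card, ← hidx]; rfl
  -- sizes
  have hk2 : 2 ≤ (pts I ((1 : G) : G ⧸ H)).card := by
    obtain ⟨h, hh⟩ := hfix a
    refine Finset.one_lt_card.2 ⟨a, ?_, h • a, ?_, hh.symm⟩
    · rw [mem_pts, hI1]; exact mem_orbit_self a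
    · rw [mem_pts, hI1]; exact mem_orbit a h
  obtain ⟨b, hb⟩ : ∃ b, b ∉ orbit H a := by
    by_contra h
    push Not at h
    apply hnt
    constructor
    intro x y
    obtain ⟨s, hs⟩ := h x
    obtain ⟨t, ht⟩ := h y
    refine ⟨t * s⁻¹, ?_⟩
    simp only at hs ht
    rw [mul_smul, ← hs, inv_smul_smul, ht]
  have hkv : (pts I ((1 : G) : G ⧸ H)).card + 2 ≤ Fintype.card Ω := by
    obtain ⟨h, hh⟩ := hfix b
    have e1 : 2 ≤ (pts I ((1 : G) : G ⧸ H))ᶜ.card := by
      refine Finset.one_lt_card.2 ⟨b, ?_, h • b, ?_, hh.symm⟩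
      · rw [Finset.mem_compl, mem_pts, hI1]; exact hb
      · rw [Finset.mem_compl, mem_pts, hI1]
        intro h3
        exact hb ((smul_mem_orb h.2).1 h3)
    rw [Finset.card_compl] at e1
    omega
  obtain ⟨l, D⟩ := exists_des hI hcard hXt h1' h2' _ hk2 hkv
  -- orbits of H
  have hor := H64.TwoOrbits.card_orbits_le_two h2 hidx
  have ho : ∀ c d : Ω, (I ((1 : G) : G ⧸ H) c ↔ I ((1 : G) : G ⧸ H) d) →
      ∃ g : G, g • ((1 : G) : G ⧸ H) = ((1 : G) : G ⧸ H) ∧ g • c = d := by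
    intro c d hcd
    rw [hI1, hI1] at hcd
    have h3 : d ∈ orbit H c := by
      by_cases hc : c ∈ orbit H a
      · have hd := hcd.1 hc
        rw [← orbit_eq_iff] at hc
        rw [hc]; exact hd
      · have hd : d ∉ orbit H a := fun h => hc (hcd.2 h)
        by_contra hdc
        have : Finite (orbitRel.Quotient H Ω) := Quotient.finite _
        have := Fintype.ofFinite (orbitRel.Quotient H Ω)
        rw [Nat.card_eq_fintype_card] at hor
        have h4 : 2 < Fintype.card (orbitRel.Quotient H Ω) := by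
          rw [Fintype.two_lt_card_iff]
          refine ⟨Quotient.mk _ a, Quotient.mk _ c, Quotient.mk _ d, ?_, ?_, ?_⟩
          · intro h
            have h5 : a ∈ orbit H c := Quotient.exact h
            exact hc ((mem_orbit_symm).1 h5)
          · intro h
            have h5 : a ∈ orbit H d := Quotient.exact h
            exact hd ((mem_orbit_symm).1 h5)
          · intro h
            have h5 : c ∈ orbit H d := Quotient.exact h
            exact hdc ((mem_orbit_symm).1 h5)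
        omega
    obtain ⟨s, hs⟩ := h3
    refine ⟨s, ?_, hs⟩
    rw [MulAction.Quotient.smul_mk, smul_eq_mul, mul_one, QuotientGroup.eq]
    simp
  have htr := D.trans hI ((1 : G) : G ⧸ H) ho
  have hst : ∀ g : G, g ∈ stabilizer G (((1 : G) : G ⧸ H)) ↔ g ∈ H := by
    intro g
    rw [mem_stabilizer_iff, MulAction.Quotient.smul_mk, smul_eq_mul, mul_one, QuotientGroup.eq]
    simp
  have hker0 : ∀ y ∈ ker H a, y • ((1 : G) : G ⧸ H) = ((1 : G) : G ⧸ H) :=
    fun y hy => (hst y).2 hy.1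
  have hker1 : ∀ y ∈ ker H a, ∀ ω, I ((1 : G) : G ⧸ H) ω → y • ω = ω :=
    fun y hy ω hω => hy.2 ω ((hI1 ω).1 hω)
  refine ⟨⟨?_⟩, ?_, ((1 : G) : G ⧸ H), ker H a, ?_, ?_, ?_, ?_⟩
  · intro m₁ m₂ hm
    apply FaithfulSMul.eq_of_smul_eq_smul (α := Ω)
    intro ω
    have h3 := D.faithful hI (g := m₂⁻¹ * m₁) (fun x => by rw [mul_smul, hm x, inv_smul_smul]) ω
    rw [mul_smul, inv_smul_eq_iff] at h3
    exact h3
  · rw [is_two_pretransitive_iff]
    intro x y z w hxy hzw
    obtain ⟨g, hg⟩ := hXt x ((1 : G) : G ⧸ H)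
    obtain ⟨s, hs⟩ := hXt z ((1 : G) : G ⧸ H)
    obtain ⟨t, ht0, ht⟩ := htr (g • y) (s • w) (by rw [← hg]; exact fun h => hxy (MulAction.injective g h).symm)
      (by rw [← hs]; exact fun h => hzw (MulAction.injective s h).symm)
    refine ⟨s⁻¹ * t * g, ?_, ?_⟩
    · rw [mul_smul, mul_smul, hg, ht0, inv_smul_eq_iff, hs]
    · rw [mul_smul, mul_smul, ht, inv_smul_smul]
  · intro g hg
    exact (hst g).2 hg.1
  · intro g hg n hn
    rw [hst] at hg
    refine ⟨mul_mem (mul_mem hg hn.1) (inv_mem hg), fun c hc => ?_⟩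
    have h3 : g⁻¹ • c ∈ orbit H a := (smul_mem_orb (inv_mem hg)).2 hc
    rw [mul_smul, mul_smul, hn.2 _ h3, smul_inv_smul]
  · intro g
    by_cases hg : g ∈ H
    · left
      have h3 : ∀ s ∈ H, ∀ n ∈ ker H a, s * n * s⁻¹ ∈ ker H a := by
        intro g hg n hn
        refine ⟨mul_mem (mul_mem hg hn.1) (inv_mem hg), fun c hc => ?_⟩
        have h3 : g⁻¹ • c ∈ orbit H a := (smul_mem_orb (inv_mem hg)).2 hc
        rw [mul_smul, mul_smul, hn.2 _ h3, smul_inv_smul]
      ext n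
      constructor
      · rintro ⟨m, hm, rfl⟩
        exact h3 g hg m hm
      · intro hn
        refine ⟨g⁻¹ * n * g, ?_, ?_⟩
        · have := h3 g⁻¹ (inv_mem hg) n hn
          rwa [inv_inv] at this
        · simp [mul_assoc]
    · right
      rw [eq_bot_iff]
      rintro y ⟨⟨m, hm, rfl⟩, hy⟩
      rw [Subgroup.mem_bot]
      apply FaithfulSMul.eq_of_smul_eq_smul (α := Ω)
      intro ω
      rw [one_smul]
      have hne : ((1 : G) : G ⧸ H) ≠ g • ((1 : G) : G ⧸ H) := by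
        intro h
        exact hg ((hst g).1 h.symm)
      refine D.ti hI hne (hker0 _ hy) (hker1 _ hy) ?_ ?_ ω
      · show (g * m * g⁻¹) • _ = _
        rw [mul_smul, mul_smul, inv_smul_smul, hker0 m hm]
      · intro c hc
        show (g * m * g⁻¹) • c = c
        have h3 : I ((1 : G) : G ⧸ H) (g⁻¹ • c) := by
          rw [← hI g, smul_inv_smul]; exact hc
        rw [mul_smul, mul_smul, hker1 m hm _ h3, smul_inv_smul]
  · have hn : (h₀ : G) ∈ ker H a := ⟨h₀.2, hh₀'⟩
    refine ⟨h₀, hn, fun h => hh₀ (Subtype.ext h), ?_⟩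
    obtain ⟨c, hc⟩ : ∃ c : Ω, (h₀ : G) • c ≠ c := by
      by_contra h
      push Not at h
      apply hh₀
      apply Subtype.ext
      apply FaithfulSMul.eq_of_smul_eq_smul (α := Ω)
      intro ω
      rw [h ω]
      simp
    exact D.exists_fixed hI (hker0 _ hn) (hker1 _ hn) hc

/-- The data of S3705 give those of S3706. -/
theorem unfaithful_of_normal (H : Subgroup G) (N : Subgroup H) (hN : N.Normal) (hN1 : N ≠ ⊥)
    (hNfix : ∃ a : Ω, ∀ x ∈ N, x • a = a) :
    ∃ a : Ω, ∃ h : H, h ≠ 1 ∧ ∀ b ∈ orbit H a, h • b = b := by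
  obtain ⟨a, ha⟩ := hNfix
  obtain ⟨x', hx'⟩ := (Subgroup.ne_bot_iff_exists_ne_one).1 hN1
  obtain ⟨x, hx⟩ := x'
  have hx1 : x ≠ 1 := fun h => hx' (Subtype.ext h)
  refine ⟨a, x, hx1, ?_⟩
  rintro _ ⟨h, rfl⟩
  show x • h • a = h • a
  have h3 := ha _ (hN.conj_mem x hx h⁻¹)
  rw [inv_inv, mul_smul, mul_smul, inv_smul_eq_iff] at h3
  exact h3

theorem arith {v q n : ℕ} (hq : 2 ≤ q) (h : v * (q - 1) = q ^ n - 1) : v = (q ^ n - 1) / (q - 1) := by
  rw [← h, Nat.mul_div_cancel _ (by omega)]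

end main

end H8.Ito
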