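import Cfsg.Agent.Lib.H8.BSReg8
import Cfsg.Agent.Lib.H62.BSUnital

/-!
T-BS, module M5, part 4: assembly.
-/

set_option autoImplicit false
set_option linter.unusedSectionVars false
set_option linter.unusedSimpArgs false

namespace H8.BSReg

open MulAction H6.RankOne Lead.BS

universe u v

variable {G : Type u} {Ω : Type v} [Group G] [Finite G] [MulAction G Ω] {a : Ω} {t : G}
  {Q E K V W : Subgroup G} {s r : G}
variable {F : Type} [Field F] {e : F → G} {h : Fˣ → G}

/-- if `Q` acts by the standard translations then `⟨Q, t⟩` is `PSU₃(q)` -/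
theorem psu_of_crd (c : Ctx G Ω a t Q E K V W s r) {w : G} {L : Type} [Field L] [Fintype L] {n : ℕ} {ι : F →+* L} {θ : L}
    {X Z : Ω → L} (C : Crd a t w e h L n ι θ X Z)
    (hX : ∀ u ∈ Q, ∀ b, b ≠ a → X (u • b) = X (u • t • a) + X b)
    (hZ : ∀ u ∈ Q, ∀ b, b ≠ a → Z (u • b) = Z (u • t • a) + Z b + X b * X (u • t • a) ^ (2 ^ n)) :
    Nonempty (Subgroup.closure ((Q : Set G) ∪ {t}) ≃* Cfsg.PSU 3 L (2 ^ n)) := by
  classical
  have := C.char_L
  have hqq : ∀ x : L, (x ^ (2 ^ n)) ^ (2 ^ n) = x := by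
    intro x
    rw [← pow_mul, ← pow_two, ← C.card_L, FiniteField.pow_card]
  have hadd : ∀ x y : L, (x + y) ^ (2 ^ n) = x ^ (2 ^ n) + y ^ (2 ^ n) := fun x y => add_pow_char_pow x y 2 n
  have h0q : (0 : L) ^ (2 ^ n) = 0 := zero_pow (by positivity)
  have hta := ta_ne c.hS
  have hpt : ∀ b, b ≠ a → (Z b) ^ (2 ^ n) + ((Z b) ^ (2 ^ n)) ^ (2 ^ n) = (X b) ^ (2 ^ n + 1) := by
    intro b hb
    rw [hqq, ← C.norm b hb]; ring
  let f : Ω → Option (Pt L (2 ^ n)) := fun b => if hb : b = a then none else some ⟨(X b, (Z b) ^ (2 ^ n)), hpt b hb⟩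
  have hfa : f a = none := dif_pos rfl
  have hfb : ∀ b (hb : b ≠ a), f b = some ⟨(X b, (Z b) ^ (2 ^ n)), hpt b hb⟩ := fun b hb => dif_neg hb
  have hval : ∀ b (hb : b ≠ a) (x : Pt L (2 ^ n)), f b = some x → x.1 = (X b, (Z b) ^ (2 ^ n)) := by
    intro b hb x hx
    exact (congrArg Subtype.val (Option.some.inj ((hfb b hb).symm.trans hx))).symm
  have hinj : Function.Injective f := by
    intro b b' hbb
    by_cases hb : b = a
    · by_cases hb' : b' = a
      · rw [hb, hb']
      · rw [hb, hfa, hfb b' hb'] at hbb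
        exact absurd hbb (by simp)
    · by_cases hb' : b' = a
      · rw [hb', hfa, hfb b hb] at hbb
        exact absurd hbb (by simp)
      · rw [hfb b hb, hfb b' hb'] at hbb
        have h1 : (X b, (Z b) ^ (2 ^ n)) = (X b', (Z b') ^ (2 ^ n)) := congrArg Subtype.val (Option.some.inj hbb)
        rw [Prod.mk.injEq] at h1
        refine C.inj b b' hb hb' h1.1 ?_
        rw [← hqq (Z b), h1.2, hqq]
  have hsurj : Function.Surjective f := by
    rintro (_ | ⟨⟨x, y⟩, hxy⟩)
    · exact ⟨a, hfa⟩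
    · simp only at hxy
      obtain ⟨b, hb, hb1, hb2⟩ := C.surj x (y ^ (2 ^ n)) (by rw [hqq, ← hxy]; ring)
      refine ⟨b, ?_⟩
      rw [hfb b hb]
      congr 1
      apply Subtype.ext
      simp only [hb1, hb2, hqq]
  let σ : Ω ≃ Option (Pt L (2 ^ n)) := Equiv.ofBijective f ⟨hinj, hsurj⟩
  have hσ : ∀ b, σ b = f b := fun b => rfl
  obtain ⟨S, hS⟩ : ∃ S : Subgroup G, S = Subgroup.closure ((Q : Set G) ∪ {t}) := ⟨_, rfl⟩
  let φ : S →* Equiv.Perm (Option (Pt L (2 ^ n))) :=
    MonoidHom.mk' (fun g => σ.symm.trans ((MulAction.toPerm (g : G)).trans σ)) (by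
      intro g g'
      ext x : 1
      simp only [Equiv.trans_apply, MulAction.toPerm_apply, Equiv.Perm.mul_apply, Equiv.symm_apply_apply,
        Subgroup.coe_mul, mul_smul])
  have hφ : ∀ (g : S) (b : Ω), φ g (f b) = f ((g : G) • b) := by
    intro g b
    change (σ.symm.trans ((MulAction.toPerm (g : G)).trans σ)) (σ b) = σ ((g : G) • b)
    simp only [Equiv.trans_apply, MulAction.toPerm_apply, Equiv.symm_apply_apply]
  have htS : t ∈ S := by rw [hS]; exact Subgroup.subset_closure (Or.inr rfl)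
  have hQS : ∀ u ∈ Q, u ∈ S := fun u hu => by rw [hS]; exact Subgroup.subset_closure (Or.inl hu)
  have hune : ∀ u ∈ Q, ∀ b, b ≠ a → u • b ≠ a := by
    intro u hu b hb h1
    exact hb (smul_left_cancel u (h1.trans (Q_fix c.hS hu).symm))
  have key : ∀ u ∈ Q, ∀ (hu : u ∈ S), ∀ x : Pt L (2 ^ n), ∀ (p : Pt L (2 ^ n)), f (u • t • a) = some p →
      ∃ y : Pt L (2 ^ n), φ ⟨u, hu⟩ (some x) = some y ∧ y.1 = H62.BSU.translFun L (2 ^ n) p x.1 := by
    intro u hu huS x p hp
    obtain ⟨b, hb⟩ := hsurj (some x)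
    have hba : b ≠ a := by
      rintro rfl
      rw [hfa] at hb
      exact absurd hb (by simp)
    have h1 : φ ⟨u, huS⟩ (some x) = f (u • b) := by rw [← hb, hφ]
    have hub := hune u hu b hba
    have huta := hune u hu _ hta
    rw [hfb _ hub] at h1
    refine ⟨_, h1, ?_⟩
    unfold H62.BSU.translFun
    rw [hval _ hba _ hb, hval _ huta _ hp]
    change (X (u • b), (Z (u • b)) ^ (2 ^ n)) = _
    rw [hX u hu b hba, hZ u hu b hba, Prod.mk.injEq]
    refine ⟨add_comm _ _, ?_⟩
    rw [hadd, hadd, mul_pow, hqq]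
    ring
  have hres := H62.BSU.unital_model L (2 ^ n) n C.two_le rfl C.card_L φ (by
      intro g g' hgg
      apply Subtype.ext
      have h1 : ((g' : G)⁻¹ * (g : G)) = 1 := by
        apply c.faith
        intro b
        have h2 : f ((g : G) • b) = f ((g' : G) • b) := by rw [← hφ, ← hφ, hgg]
        have h3 := hinj h2
        rw [mul_smul, h3, inv_smul_smul]
      exact (inv_mul_eq_one.mp h1).symm) {u : S | (u : G) ∈ Q} ⟨t, htS⟩ (by
      rintro ⟨u, huS⟩ hu
      obtain ⟨p, hp⟩ : ∃ p, f (u • t • a) = some p := ⟨_, hfb _ (hune u hu _ hta)⟩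
      refine ⟨p, ?_, fun x => key u hu huS x p hp⟩
      rw [← hfa, hφ]
      change f (u • a) = f a
      rw [Q_fix c.hS hu]) (by
      intro p
      obtain ⟨b, hb⟩ := hsurj (some p)
      have hba : b ≠ a := by
        rintro rfl
        rw [hfa] at hb
        exact absurd hb (by simp)
      obtain ⟨u, hu, hub⟩ := exists_Q c.hS hba
      exact ⟨⟨u, hQS u hu⟩, hu, fun x => key u hu _ x p (by rw [hub, hb])⟩) (by
      rw [← hfa, hφ]
      change f (t • a) = _
      rw [hfb _ hta]
      congr 1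
      apply Subtype.ext
      simp only [C.X_ta, C.Z_ta, h0q]) (by
      have h1 : f (t • a) = some ⟨(0, 0), by simp [h0q]⟩ := by
        rw [hfb _ hta]
        congr 1
        apply Subtype.ext
        simp only [C.X_ta, C.Z_ta, h0q]
      rw [← h1, hφ]
      change f (t • t • a) = none
      rw [t_t_smul c.hS, hfa]) (by
      intro x hx
      obtain ⟨b, hb⟩ := hsurj (some x)
      have hba : b ≠ a := by
        rintro rfl
        rw [hfa] at hb
        exact absurd hb (by simp)
      have hbt : b ≠ t • a := by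
        rintro rfl
        apply hx
        rw [hval _ hta _ hb, C.X_ta, C.Z_ta, h0q]
      have htb : t • b ≠ a := by
        intro h1
        apply hbt
        rw [← h1, t_t_smul c.hS]
      have h1 : φ ⟨t, htS⟩ (some x) = f (t • b) := by rw [← hb, hφ]
      rw [hfb _ htb] at h1
      refine ⟨_, h1, ?_⟩
      unfold H62.BSU.tauFun
      rw [hval _ hba _ hb]
      change (X (t • b), (Z (t • b)) ^ (2 ^ n)) = _
      rw [C.X_t b hba hbt, C.Z_t b hba hbt, hqq, div_pow, one_pow]) (by
      rw [eq_top_iff]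
      rintro ⟨g, hg⟩ -
      have h1 : ∀ g (hg : g ∈ Subgroup.closure ((Q : Set G) ∪ {t})) (hg' : g ∈ S),
          (⟨g, hg'⟩ : S) ∈ Subgroup.closure ({u : S | (u : G) ∈ Q} ∪ {⟨t, htS⟩}) := by
        intro g hg
        induction hg using Subgroup.closure_induction with
        | mem x hx =>
          intro hg'
          apply Subgroup.subset_closure
          rcases hx with hx | hx
          · exact Or.inl hx
          · right
            rw [Set.mem_singleton_iff] at hx ⊢
            exact Subtype.ext hx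
        | one => intro hg'; exact Subgroup.one_mem _
        | mul x y hx hy ihx ihy =>
          intro hg'
          have hx' : x ∈ S := by rw [hS]; exact hx
          have hy' : y ∈ S := by rw [hS]; exact hy
          exact Subgroup.mul_mem _ (ihx hx') (ihy hy')
        | inv x hx ih =>
          intro hg'
          have hx' : x ∈ S := by rw [hS]; exact hx
          exact Subgroup.inv_mem _ (ih hx')
      exact h1 g (hS ▸ hg) hg)
  rw [← hS]
  exact hres

end H8.BSReg
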