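import Mathlib

/-!
An abelian group of automorphisms of a finite abelian group that is transitive on the non-zero elements generates a
field; a normalising automorphism of prime order with exactly two fixed points forces the order to be `2 ^ ℓ`.
-/

set_option autoImplicit false

namespace H8.FieldAct

variable {Γ V : Type*} [Group Γ] [AddCommGroup V] [DistribMulAction Γ V]

/-- elements as endomorphisms -/
abbrev toEnd (Γ V : Type*) [Group Γ] [AddCommGroup V] [DistribMulAction Γ V] : Γ →* AddMonoid.End V :=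
  DistribMulAction.toAddMonoidEnd Γ V

theorem toEnd_apply (a : Γ) (v : V) : toEnd Γ V a v = a • v := rfl

/-- the ring generated by a group of automorphisms -/
def S (V : Type*) [AddCommGroup V] [DistribMulAction Γ V] (K : Subgroup Γ) : Subring (AddMonoid.End V) :=
  Subring.closure (toEnd Γ V '' K)

theorem mem_S {K : Subgroup Γ} {k : Γ} (hk : k ∈ K) : toEnd Γ V k ∈ S V K :=
  Subring.subset_closure ⟨k, hk, rfl⟩

theorem S_comm {K : Subgroup Γ} (hcomm : ∀ a ∈ K, ∀ b ∈ K, a * b = b * a) {f : AddMonoid.End V} (hf : f ∈ S V K)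
    {k : Γ} (hk : k ∈ K) : f * toEnd Γ V k = toEnd Γ V k * f := by
  have hle : S V K ≤ Subring.centralizer (toEnd Γ V '' K) := by
    apply Subring.closure_le.2
    rintro _ ⟨a, ha, rfl⟩
    rw [SetLike.mem_coe, Subring.mem_centralizer_iff]
    rintro _ ⟨b, hb, rfl⟩
    rw [← map_mul, ← map_mul, hcomm b hb a ha]
  have := (Subring.mem_centralizer_iff.1 (hle hf)) _ ⟨k, hk, rfl⟩
  exact this.symm

theorem inj_of_ne {K : Subgroup Γ} (hcomm : ∀ a ∈ K, ∀ b ∈ K, a * b = b * a)
    (htr : ∀ v w : V, v ≠ 0 → w ≠ 0 → ∃ k ∈ K, k • v = w) {f : AddMonoid.End V} (hf : f ∈ S V K) (hf0 : f ≠ 0) {w : V}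
    (hw : f w = 0) : w = 0 := by
  by_contra hw0
  apply hf0
  ext u
  by_cases hu : u = 0
  · rw [hu, map_zero, map_zero]
  · obtain ⟨k, hk, rfl⟩ := htr w u hw0 hu
    have h1 : (f * toEnd Γ V k) w = (toEnd Γ V k * f) w := by rw [S_comm hcomm hf hk]
    have h2 : f (k • w) = k • (f w) := h1
    rw [h2, hw, smul_zero]
    rfl

theorem conj_mem {K : Subgroup Γ} {x : Γ} (hx : ∀ k ∈ K, x * k * x⁻¹ ∈ K) {f : AddMonoid.End V} (hf : f ∈ S V K) :
    toEnd Γ V x * f * toEnd Γ V x⁻¹ ∈ S V K := by
  have hxx : toEnd Γ V x⁻¹ * toEnd Γ V x = 1 := by rw [← map_mul, inv_mul_cancel, map_one]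
  have hxx' : toEnd Γ V x * toEnd Γ V x⁻¹ = 1 := by rw [← map_mul, mul_inv_cancel, map_one]
  induction hf using Subring.closure_induction with
  | mem f hf =>
    obtain ⟨k, hk, rfl⟩ := hf
    rw [← map_mul, ← map_mul]
    exact mem_S (hx k hk)
  | zero => rw [mul_zero, zero_mul]; exact (S V K).zero_mem
  | one => rw [mul_one, hxx']; exact (S V K).one_mem
  | add f g _ _ hf hg => rw [mul_add, add_mul]; exact (S V K).add_mem hf hg
  | neg f _ hf => rw [mul_neg, neg_mul]; exact (S V K).neg_mem hf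
  | mul f g _ _ hf hg =>
    have : toEnd Γ V x * (f * g) * toEnd Γ V x⁻¹ = (toEnd Γ V x * f * toEnd Γ V x⁻¹) * (toEnd Γ V x * g * toEnd Γ V x⁻¹) := by
      calc toEnd Γ V x * (f * g) * toEnd Γ V x⁻¹ = toEnd Γ V x * f * 1 * g * toEnd Γ V x⁻¹ := by
            rw [mul_one]; simp only [mul_assoc]
        _ = _ := by rw [← hxx]; simp only [mul_assoc]
    rw [this]
    exact (S V K).mul_mem hf hg

theorem card_eq_two_pow [Finite V] (K : Subgroup Γ) (hcomm : ∀ a ∈ K, ∀ b ∈ K, a * b = b * a)
    (htr : ∀ v w : V, v ≠ 0 → w ≠ 0 → ∃ k ∈ K, k • v = w) (x : Γ) (hx : x ∈ Subgroup.normalizer (K : Set Γ))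
    {ℓ : ℕ} (hℓ : ℓ.Prime) (hxo : orderOf x = ℓ) (hxf : ∀ g ∈ Subgroup.zpowers x, (∀ w : V, g • w = w) → g = 1) {v : V}
    (hv : v ≠ 0) (hfix : ∀ w : V, x • w = w → w = 0 ∨ w = v) (hxv : x • v = v) : Nat.card V = 2 ^ ℓ := by
  classical
  have := Fintype.ofFinite V
  have hmc : IsMulCommutative (S V K) := by
    apply Subring.isMulCommutative_closure
    rintro _ ⟨a, ha, rfl⟩ _ ⟨b, hb, rfl⟩
    rw [← map_mul, ← map_mul, hcomm a ha b hb]
  let _ : CommRing (S V K) := { (S V K).toRing with mul_comm := fun a b => mul_comm' a b }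
  have hfinE : Finite (AddMonoid.End V) := Finite.of_injective (fun f : AddMonoid.End V => (f : V → V)) DFunLike.coe_injective
  have hfin : Finite (S V K) := inferInstance
  have hnt : Nontrivial (S V K) := by
    refine ⟨0, 1, ?_⟩
    intro h
    have h1 : (0 : AddMonoid.End V) v = (1 : AddMonoid.End V) v := congrArg (fun f : S V K => (f : AddMonoid.End V) v) h
    exact hv h1.symm
  have hnzd : NoZeroDivisors (S V K) := by
    refine ⟨fun {f g} hfg => ?_⟩
    by_cases hf : f = 0
    · exact Or.inl hf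
    · right
      apply Subtype.ext
      ext u
      have h1 : (f : AddMonoid.End V) ((g : AddMonoid.End V) u) = 0 :=
        congrArg (fun f : S V K => (f : AddMonoid.End V) u) hfg
      exact inj_of_ne hcomm htr f.2 (fun h => hf (Subtype.ext h)) h1
  have hdom : IsDomain (S V K) := NoZeroDivisors.to_isDomain _
  have hfield : IsField (S V K) := Finite.isField_of_domain (S V K)
  let _ : Field (S V K) := hfield.toField
  -- the group generated by x
  have hzp : ∀ g : Subgroup.zpowers x, ∀ k ∈ K, (g : Γ) * k * (g : Γ)⁻¹ ∈ K := by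
    intro g k hk
    have h2 : (g : Γ) ∈ Subgroup.normalizer (K : Set Γ) := (Subgroup.zpowers_le.2 hx) g.2
    exact (Subgroup.mem_normalizer_iff.1 h2 k).1 hk
  have hgv : ∀ g : Subgroup.zpowers x, (g : Γ) • v = v := by
    rintro ⟨g, hg⟩
    have h1 : Subgroup.zpowers x ≤ MulAction.stabilizer Γ v := Subgroup.zpowers_le.2 hxv
    exact h1 hg
  let act : MulSemiringAction (Subgroup.zpowers x) (S V K) :=
    { smul := fun g f => ⟨toEnd Γ V g * f * toEnd Γ V (g : Γ)⁻¹, conj_mem (hzp g) f.2⟩
      one_smul := fun f => Subtype.ext (by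
        show toEnd Γ V (1 : Γ) * f * toEnd Γ V (1 : Γ)⁻¹ = f
        rw [inv_one, map_one, one_mul, mul_one])
      mul_smul := fun g h f => Subtype.ext (by
        show toEnd Γ V ((g : Γ) * h) * f * toEnd Γ V ((g : Γ) * h)⁻¹ =
          toEnd Γ V (g : Γ) * (toEnd Γ V (h : Γ) * f * toEnd Γ V (h : Γ)⁻¹) * toEnd Γ V (g : Γ)⁻¹
        rw [mul_inv_rev, map_mul, map_mul]
        simp only [mul_assoc])
      smul_zero := fun g => Subtype.ext (by
        show toEnd Γ V (g : Γ) * 0 * toEnd Γ V (g : Γ)⁻¹ = 0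
        rw [mul_zero, zero_mul])
      smul_add := fun g f f' => Subtype.ext (by
        show toEnd Γ V (g : Γ) * (f + f') * toEnd Γ V (g : Γ)⁻¹ =
          toEnd Γ V (g : Γ) * f * toEnd Γ V (g : Γ)⁻¹ + toEnd Γ V (g : Γ) * f' * toEnd Γ V (g : Γ)⁻¹
        rw [mul_add, add_mul])
      smul_one := fun g => Subtype.ext (by
        show toEnd Γ V (g : Γ) * 1 * toEnd Γ V (g : Γ)⁻¹ = 1
        rw [mul_one, ← map_mul, mul_inv_cancel, map_one])
      smul_mul := fun g f f' => Subtype.ext (by
        show toEnd Γ V (g : Γ) * (f * f') * toEnd Γ V (g : Γ)⁻¹ =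
          (toEnd Γ V (g : Γ) * f * toEnd Γ V (g : Γ)⁻¹) * (toEnd Γ V (g : Γ) * f' * toEnd Γ V (g : Γ)⁻¹)
        have hgg : toEnd Γ V (g : Γ)⁻¹ * toEnd Γ V (g : Γ) = 1 := by rw [← map_mul, inv_mul_cancel, map_one]
        calc toEnd Γ V (g : Γ) * ((f : AddMonoid.End V) * f') * toEnd Γ V (g : Γ)⁻¹
            = toEnd Γ V (g : Γ) * f * 1 * f' * toEnd Γ V (g : Γ)⁻¹ := by
              rw [mul_one]; simp only [mul_assoc]
          _ = _ := by rw [← hgg]; simp only [mul_assoc]) }
  have hgv' : ∀ g : Subgroup.zpowers x, (g : Γ)⁻¹ • v = v := fun g => hgv g⁻¹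
  have hfaith : FaithfulSMul (Subgroup.zpowers x) (S V K) := by
    refine ⟨fun {g h} hgh => ?_⟩
    have h0 : (h⁻¹ * g : Subgroup.zpowers x) = 1 := by
      apply Subtype.ext
      apply hxf _ (h⁻¹ * g).2
      intro u
      show ((h : Γ)⁻¹ * (g : Γ)) • u = u
      rw [mul_smul, inv_smul_eq_iff]
      by_cases hu : u = 0
      · rw [hu, smul_zero, smul_zero]
      · obtain ⟨k, hk, rfl⟩ := htr v u hv hu
        have h1 := congrArg (fun f : S V K => (f : AddMonoid.End V) v) (hgh ⟨toEnd Γ V k, mem_S hk⟩)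
        have h2 : (g : Γ) • (k • ((g : Γ)⁻¹ • v)) = (h : Γ) • (k • ((h : Γ)⁻¹ • v)) := h1
        rwa [hgv', hgv'] at h2
    exact (inv_mul_eq_one.1 h0).symm
  -- evaluation at v
  have heval : Function.Bijective (fun f : S V K => (f : AddMonoid.End V) v) := by
    constructor
    · intro f g hfg
      by_contra hne
      have h1 : ((f - g : S V K) : AddMonoid.End V) ≠ 0 := fun h => hne (sub_eq_zero.1 (Subtype.ext h))
      have h2 : ((f - g : S V K) : AddMonoid.End V) v = 0 := by
        show (f : AddMonoid.End V) v - (g : AddMonoid.End V) v = 0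
        exact sub_eq_zero.2 hfg
      exact hv (inj_of_ne hcomm htr (f - g).2 h1 h2)
    · intro w
      by_cases hw : w = 0
      · exact ⟨0, hw.symm⟩
      · obtain ⟨k, hk, rfl⟩ := htr v w hv hw
        exact ⟨⟨toEnd Γ V k, mem_S hk⟩, rfl⟩
  have hcardS : Nat.card (S V K) = Nat.card V := Nat.card_congr (Equiv.ofBijective _ heval)
  have := Fintype.ofFinite (S V K)
  have hfz : Finite (Subgroup.zpowers x) := by
    apply Nat.finite_of_card_ne_zero
    rw [Nat.card_zpowers, hxo]
    exact hℓ.ne_zero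
  have := Fintype.ofFinite (Subgroup.zpowers x)
  have hrank := FixedPoints.finrank_eq_card (Subgroup.zpowers x) (S V K)
  have hzc : Fintype.card (Subgroup.zpowers x) = ℓ := by
    rw [← Nat.card_eq_fintype_card, Nat.card_zpowers, hxo]
  rw [hzc] at hrank
  have hfixcard : Nat.card (FixedPoints.subfield (Subgroup.zpowers x) (S V K)) = 2 := by
    apply le_antisymm
    · -- injects into {0, v}
      let φ : FixedPoints.subfield (Subgroup.zpowers x) (S V K) → ({0, v} : Set V) := fun f =>
        ⟨((f : S V K) : AddMonoid.End V) v, by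
          have h1 := f.2 (⟨x, Subgroup.mem_zpowers x⟩ : Subgroup.zpowers x)
          have h2 := congrArg (fun f : S V K => (f : AddMonoid.End V) v) h1
          have h3 : x • (((f : S V K) : AddMonoid.End V) (x⁻¹ • v)) = ((f : S V K) : AddMonoid.End V) v := h2
          have h4 : x⁻¹ • v = v := hgv' ⟨x, Subgroup.mem_zpowers x⟩
          rw [h4] at h3
          rcases hfix _ h3 with h | h
          · exact Or.inl h
          · exact Or.inr h⟩
      have hφ : Function.Injective φ := by
        intro f g hfg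
        apply Subtype.ext
        apply heval.1
        exact congrArg Subtype.val hfg
      have h1 := Nat.card_le_card_of_injective φ hφ
      rw [Nat.card_coe_set_eq, Set.ncard_pair (Ne.symm hv)] at h1
      exact h1
    · exact Finite.one_lt_card
  have h1 := Module.natCard_eq_pow_finrank (K := FixedPoints.subfield (Subgroup.zpowers x) (S V K)) (V := S V K)
  rw [hrank, hfixcard, hcardS] at h1
  exact h1

end H8.FieldAct
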