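import Cfsg.Agent.Lib.H14.GF1
import Cfsg.Agent.Lib.H51.SzBound

/-! The structure `TFact` for the Suzuki groups. -/

set_option autoImplicit false

namespace H8.TF

open Cfsg Subgroup H14.GF H8.SuzGroup H8.SuzSylow H8.SuzMat

universe u v

/-- transport of `TFact` along an isomorphism -/
theorem tfact_equiv {T : Type u} {T' : Type v} [Group T] [Group T'] (e : T ≃* T') {Q : ℕ} (h : TFact T' Q) : TFact T Q where
  four := h.four
  el := by
    intro E hc h2
    have h1 := h.el (E.map e.toMonoidHom) (by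
      rintro _ ⟨a, ha, rfl⟩ _ ⟨b, hb, rfl⟩
      rw [← map_mul, hc a ha b hb, map_mul]) (by
      rintro _ ⟨a, ha, rfl⟩
      rw [← map_mul, h2 a ha, map_one])
    rwa [← Nat.card_congr (E.equivMapOfInjective e.toMonoidHom e.injective).toEquiv] at h1
  inv := by
    intro t ht htt
    obtain ⟨x, h1, h2, h3, h4, h5⟩ := h.inv (e t) (by
      intro h
      exact ht (e.injective (h.trans (map_one e).symm))) (by rw [← map_mul, htt, map_one])
    have ho : orderOf (e.symm x) = orderOf x := MulEquiv.orderOf_eq e.symm x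
    refine ⟨e.symm x, by rwa [ho], by rwa [ho], ?_, ?_, ?_⟩
    · apply e.injective
      rw [map_mul, map_mul, map_inv, map_inv, MulEquiv.apply_symm_apply, h3]
    · have h6 : (centralizer ({e.symm x} : Set T)).map e.toMonoidHom = centralizer ({x} : Set T') := by
        ext y
        constructor
        · rintro ⟨z, hz, rfl⟩
          rw [SetLike.mem_coe, mem_centralizer_singleton_iff] at hz
          rw [mem_centralizer_singleton_iff]
          have h7 := congrArg e hz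
          rw [map_mul, map_mul, MulEquiv.apply_symm_apply] at h7
          exact h7
        · intro hy
          rw [mem_centralizer_singleton_iff] at hy
          refine ⟨e.symm y, ?_, MulEquiv.apply_symm_apply e y⟩
          rw [SetLike.mem_coe, mem_centralizer_singleton_iff, ← map_mul, hy, map_mul]
      rw [← h6] at h4
      rwa [← Nat.card_congr ((centralizer ({e.symm x} : Set T)).equivMapOfInjective e.toMonoidHom e.injective).toEquiv] at h4
    · intro d hd hdd
      rw [ho] at hdd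
      exact h5 d hd hdd

variable {F : Type*} [Field F] [Fintype F] {m : ℕ}

theorem inv_sz (hm : 1 ≤ m) (hF : Fintype.card F = 2 ^ (2 * m + 1)) {r : ℕ} (hr : r.Prime)
    (hrd : r ∣ (2 ^ (2 * m + 1)) ^ 2 + 1) {s : Sz F m} (hs : orderOf s = 2) :
    ∃ x : Sz F m, orderOf x = r ∧ s * x * s⁻¹ = x⁻¹ ∧ Odd (Nat.card (centralizer ({x} : Set (Sz F m)))) := by
  have hfact : Fact r.Prime := ⟨hr⟩
  have hf2 : Fact (Nat.Prime 2) := ⟨Nat.prime_two⟩
  have hexc := H8.SuzTorus.exceptional hm hF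
  have hprod : (2 ^ (2 * m + 1) + 2 ^ (m + 1) + 1) * (2 ^ (2 * m + 1) - 2 ^ (m + 1) + 1) = (2 ^ (2 * m + 1)) ^ 2 + 1 :=
    (H42.SuzPart.arith_ab hm).1
  obtain ⟨k, hk, hrk⟩ : ∃ k ∈ ({2 ^ (2 * m + 1) + 2 ^ (m + 1) + 1, 2 ^ (2 * m + 1) - 2 ^ (m + 1) + 1} : Set ℕ), r ∣ k := by
    rw [← hprod] at hrd
    rcases hr.dvd_mul.1 hrd with h | h
    · exact ⟨_, by simp, h⟩
    · exact ⟨_, by simp, h⟩
  have hkdvd : k ∣ (2 ^ (2 * m + 1)) ^ 2 + 1 := by
    rw [← hprod]
    rcases hk with rfl | hk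
    · exact Dvd.intro _ rfl
    · rw [Set.mem_singleton_iff] at hk
      subst hk
      exact Dvd.intro_left _ rfl
  have hkodd : ¬ 2 ∣ k := by
    intro h
    have h1 := h.trans hkdvd
    have h2 : 2 ∣ (2 ^ (2 * m + 1)) ^ 2 := dvd_pow (dvd_pow_self 2 (by omega)) (by norm_num)
    have h3 := (Nat.dvd_add_right h2).1 h1
    norm_num at h3
  obtain ⟨U, hUc, hUk, hUcent, hUN⟩ := hexc k hk
  -- an involution in `N(U)`
  obtain ⟨t, ht⟩ := exists_prime_orderOf_dvd_card' (G := normalizer (U : Set (Sz F m))) 2 (by rw [hUN]; exact ⟨2 * k, by ring⟩)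
  have ht2 : orderOf (t : Sz F m) = 2 := by rw [Subgroup.orderOf_coe]; exact ht
  have htt : (t : Sz F m) * t = 1 := by rw [← sq, ← ht2, pow_orderOf_eq_one]
  have htinv : (t : Sz F m)⁻¹ = t := inv_eq_of_mul_eq_one_left htt
  have hU2 : ∀ u ∈ U, orderOf u ≠ 2 := by
    intro u hu h
    apply hkodd
    rw [← hUk, ← h]
    have := orderOf_dvd_natCard (⟨u, hu⟩ : U)
    rwa [← Subgroup.orderOf_coe] at this
  have hcomm : ∀ a ∈ U, ∀ b ∈ U, a * b = b * a := by
    intro a ha b hb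
    have hcm : IsMulCommutative U := inferInstance
    have h1 : (⟨a, ha⟩ : U) * ⟨b, hb⟩ = ⟨b, hb⟩ * ⟨a, ha⟩ := hcm.is_comm.comm _ _
    exact congrArg Subtype.val h1
  have hinv : ∀ u ∈ U, (t : Sz F m) * u * t = u⁻¹ := by
    intro u hu
    have htu : (t : Sz F m) * u * t ∈ U := by
      have h1 := (mem_normalizer_iff.1 t.2 u).1 hu
      rwa [htinv] at h1
    set c := u * (t * u * t) with hc
    have hcU : c ∈ U := mul_mem hu htu
    have hct : c * t = t * c := by
      have e1 : c * t = u * t * u := by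
        rw [hc]
        calc u * (↑t * u * ↑t) * t = u * t * u * (t * t) := by group
          _ = _ := by rw [htt, mul_one]
      have e2 : t * c = (t * u * t) * u * t := by
        rw [hc, ← hcomm _ htu _ hu]
        calc _ = (↑t * ↑t) * u * ↑t * u := by group
          _ = u * t * u := by rw [htt, one_mul]
          _ = _ := by
            have e3 : (↑t * u * ↑t) * u = u * (↑t * u * ↑t) := hcomm _ htu _ hu
            rw [e3]
            calc u * ↑t * u = u * t * u * (t * t) := by rw [htt, mul_one]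
              _ = _ := by group
      rw [e1, e2]
      have e3 : (↑t * u * ↑t) * u = u * (↑t * u * ↑t) := hcomm _ htu _ hu
      rw [e3]
      calc u * ↑t * u = u * t * u * (t * t) := by rw [htt, mul_one]
        _ = _ := by group
    have hc1 : c = 1 := by
      by_contra hne
      have h1 : (t : Sz F m) ∈ centralizer ({c} : Set (Sz F m)) := mem_centralizer_singleton_iff.2 hct.symm
      rw [hUcent c hcU hne] at h1
      exact hU2 _ h1 ht2
    exact eq_inv_of_mul_eq_one_right hc1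
  -- an element of order `r`
  obtain ⟨x, hx⟩ := exists_prime_orderOf_dvd_card' (G := U) r (by rw [hUk]; exact hrk)
  have hxr : orderOf (x : Sz F m) = r := by rw [Subgroup.orderOf_coe]; exact hx
  have hx1 : (x : Sz F m) ≠ 1 := by
    intro h; rw [h, orderOf_one] at hxr; exact hr.one_lt.ne hxr
  obtain ⟨g, hg⟩ := isConj_iff.1 (H8.SuzSimple.isConj_involutions hm hF ht2 hs)
  refine ⟨g * x * g⁻¹, ?_, ?_, ?_⟩
  · rw [← hxr]
    exact MulEquiv.orderOf_eq (MulAut.conj g) (x : Sz F m)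
  · rw [← hg]
    have h1 : (t : Sz F m) * x * (t : Sz F m)⁻¹ = (x : Sz F m)⁻¹ := by rw [htinv]; exact hinv _ x.2
    calc g * ↑t * g⁻¹ * (g * ↑x * g⁻¹) * (g * ↑t * g⁻¹)⁻¹ = g * (↑t * ↑x * (↑t)⁻¹) * g⁻¹ := by group
      _ = _ := by rw [h1]; group
  · have h1 : (centralizer ({(x : Sz F m)} : Set (Sz F m))).map (MulAut.conj g).toMonoidHom =
        centralizer ({g * x * g⁻¹} : Set (Sz F m)) := by
      ext y
      constructor
      · rintro ⟨z, hz, rfl⟩
        rw [SetLike.mem_coe, mem_centralizer_singleton_iff] at hz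
        rw [mem_centralizer_singleton_iff]
        change g * z * g⁻¹ * (g * x * g⁻¹) = g * x * g⁻¹ * (g * z * g⁻¹)
        calc g * z * g⁻¹ * (g * x * g⁻¹) = g * (z * x) * g⁻¹ := by group
          _ = g * (x * z) * g⁻¹ := by rw [hz]
          _ = _ := by group
      · intro hy
        rw [mem_centralizer_singleton_iff] at hy
        refine ⟨g⁻¹ * y * g, ?_, ?_⟩
        · rw [SetLike.mem_coe, mem_centralizer_singleton_iff]
          calc g⁻¹ * y * g * ↑x = g⁻¹ * (y * (g * ↑x * g⁻¹)) * g := by group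
            _ = g⁻¹ * (g * ↑x * g⁻¹ * y) * g := by rw [hy]
            _ = _ := by group
        · change g * (g⁻¹ * y * g) * g⁻¹ = y
          group
    rw [← h1, ← Nat.card_congr ((centralizer ({(x : Sz F m)} : Set (Sz F m))).equivMapOfInjective
      (MulAut.conj g).toMonoidHom (MulAut.conj g).injective).toEquiv, hUcent _ x.2 hx1, hUk]
    exact Nat.not_even_iff_odd.1 (fun h => hkodd (even_iff_two_dvd.1 h))

theorem el_sz (hm : 1 ≤ m) (hF : Fintype.card F = 2 ^ (2 * m + 1)) (E : Subgroup (Sz F m))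
    (h2 : ∀ a ∈ E, a * a = 1) : Nat.card E ≤ 2 ^ (2 * m + 1) := by
  have hf2 : Fact (Nat.Prime 2) := ⟨Nat.prime_two⟩
  have hE : IsPGroup 2 E := fun a => ⟨1, by rw [pow_one, sq]; exact Subtype.ext (h2 a.1 a.2)⟩
  obtain ⟨P, hP⟩ := hE.exists_le_sylow
  obtain ⟨g, hg⟩ := MulAction.exists_smul_eq (Sz F m) P (PT hm hF)
  have hgP : ∀ a ∈ E, g * a * g⁻¹ ∈ TT (m := m) hF := by
    intro a ha
    have h1 : g * a * g⁻¹ ∈ (g • P : Sylow 2 (Sz F m)) := by
      rw [← SetLike.mem_coe, Sylow.coe_smul]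
      exact ⟨a, hP ha, rfl⟩
    rw [hg] at h1
    exact h1
  have hfin : Finite F := inferInstance
  have key : ∀ a : E, ∃ b : F, g * (a : Sz F m) * g⁻¹ = tG hF 0 b := by
    intro a
    obtain ⟨c, d, hcd⟩ := (mem_TT hF).1 (hgP a a.2)
    have h3 : (g * (a : Sz F m) * g⁻¹) ^ 2 = 1 := by
      rw [sq]
      calc g * (a : Sz F m) * g⁻¹ * (g * (a : Sz F m) * g⁻¹) = g * ((a : Sz F m) * a) * g⁻¹ := by group
        _ = 1 := by rw [h2 a a.2]; group
    rw [hcd, tG_sq, ← tG_one hF] at h3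
    have h4 := (tG_inj hF h3).2
    have hc : c = 0 := by
      rcases mul_eq_zero.1 h4 with h5 | h5
      · exact H8.SuzField.th_eq_zero.1 h5
      · exact h5
    exact ⟨d, by rw [hcd, hc]⟩
  choose f hf using key
  have hinj : Function.Injective f := by
    intro a b hab
    have h3 : g * (a : Sz F m) * g⁻¹ = g * (b : Sz F m) * g⁻¹ := by rw [hf, hf, hab]
    exact Subtype.ext (mul_left_cancel (mul_right_cancel h3))
  calc Nat.card E ≤ Nat.card F := Nat.card_le_card_of_injective f hinj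
    _ = _ := by rw [Nat.card_eq_fintype_card, hF]

theorem zsig (hm : 1 ≤ m) : ∃ r : ℕ, r.Prime ∧ r ≠ 2 ∧ r ∣ (2 ^ (2 * m + 1)) ^ 2 + 1 ∧
    ∀ d : ℕ, 0 < d → r ∣ 2 ^ (2 * d) - 1 → (2 ^ (2 * m + 1)) ^ 2 ≤ 2 ^ d := by
  obtain ⟨r, hr, hrd, hrk⟩ := H53.Zsig.zsigmondy (a := 2) (n := 4 * (2 * m + 1)) (by norm_num) (by omega) (by omega) (by omega)
  have hr2 : r ≠ 2 := by
    rintro rfl
    have h1 : 2 ∣ 2 ^ (4 * (2 * m + 1)) := dvd_pow_self 2 (by omega)
    have h2 : 1 ≤ 2 ^ (4 * (2 * m + 1)) := Nat.one_le_pow _ _ (by norm_num)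
    omega
  have hq : r ∣ (2 ^ (2 * m + 1)) ^ 2 + 1 := by
    have h1 : 2 ^ (4 * (2 * m + 1)) - 1 = (2 ^ (2 * (2 * m + 1)) - 1) * ((2 ^ (2 * m + 1)) ^ 2 + 1) := by
      have h2 : 2 ^ (4 * (2 * m + 1)) = (2 ^ (2 * m + 1)) ^ 4 := by rw [← pow_mul]; congr 1; ring
      have h3 : 2 ^ (2 * (2 * m + 1)) = (2 ^ (2 * m + 1)) ^ 2 := by rw [← pow_mul]; congr 1; ring
      rw [h2, h3]
      generalize 2 ^ (2 * m + 1) = a
      have h4 : a ^ 4 = (a ^ 2) ^ 2 := by ring
      rw [h4, show (a ^ 2) ^ 2 - 1 = (a ^ 2) ^ 2 - 1 ^ 2 by rw [one_pow], Nat.sq_sub_sq, mul_comm]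
    rw [h1] at hrd
    rcases hr.dvd_mul.1 hrd with h | h
    · exact absurd h (hrk _ (by omega) (by omega))
    · exact h
  refine ⟨r, hr, hr2, hq, fun d hd hdd => ?_⟩
  by_contra hcon
  push Not at hcon
  have h1 : (2 ^ (2 * m + 1)) ^ 2 = 2 ^ (2 * (2 * m + 1)) := by rw [← pow_mul]; congr 1; ring
  rw [h1] at hcon
  have h2 := (Nat.pow_lt_pow_iff_right (by norm_num : 1 < 2)).1 hcon
  exact hrk (2 * d) (by omega) (by omega) hdd

theorem tfact_sz (hm : 1 ≤ m) (hF : Fintype.card F = 2 ^ (2 * m + 1)) :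
    TFact (Sz F m) ((2 ^ (2 * m + 1)) ^ 2) where
  four := by
    have h1 : 2 ≤ 2 ^ (2 * m + 1) := by
      calc 2 = 2 ^ 1 := rfl
        _ ≤ 2 ^ (2 * m + 1) := Nat.pow_le_pow_right (by norm_num) (by omega)
    calc 4 = 2 ^ 2 := rfl
      _ ≤ _ := Nat.pow_le_pow_left h1 2
  el := fun E _ h2 => Nat.pow_le_pow_left (el_sz hm hF E h2) 2
  inv := by
    intro t ht htt
    obtain ⟨r, hr, hr2, hrd, hrk⟩ := zsig hm
    have ht2 : orderOf t = 2 := orderOf_eq_prime (by rw [sq, htt]) ht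
    obtain ⟨x, hx1, hx2, hx3⟩ := inv_sz hm hF hr hrd ht2
    exact ⟨x, by rwa [hx1], by rwa [hx1], hx2, hx3, fun d hd hdd => hrk d hd (by rwa [hx1] at hdd)⟩

end H8.TF
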