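import Cfsg.Agent.Lib.H8.TF1
import Cfsg.Agent.Lib.H17.SL2Four
import Cfsg.Agent.Lib.H6.SLCard
import Cfsg.Agent.Lib.H50.PSLOut

/-! The structure `TFact` for `PSL₂(3^(2n+1))`. -/

set_option autoImplicit false

namespace H8.TF

open Cfsg Subgroup H14.GF Matrix

theorem q_mod (n : ℕ) : 3 ^ (2 * n + 1) % 8 = 3 := by
  rw [pow_succ, pow_mul, Nat.mul_mod, Nat.pow_mod]
  norm_num

theorem q_mod5 (n : ℕ) : 3 ^ (2 * n + 1) % 5 = 3 ∨ 3 ^ (2 * n + 1) % 5 = 2 := by
  induction n with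
  | zero => left; rfl
  | succ n ih =>
    have h : 3 ^ (2 * (n + 1) + 1) = 3 ^ (2 * n + 1) * 9 := by ring
    rw [h]
    omega

theorem q_mod7 (n : ℕ) : 3 ^ (2 * n + 1) % 7 = 3 ∨ 3 ^ (2 * n + 1) % 7 = 6 ∨ 3 ^ (2 * n + 1) % 7 = 5 := by
  induction n with
  | zero => left; rfl
  | succ n ih =>
    have h : 3 ^ (2 * (n + 1) + 1) = 3 ^ (2 * n + 1) * 9 := by ring
    rw [h]
    omega

theorem zsig3 {n : ℕ} (hn : 1 ≤ n) : ∃ l : ℕ, l.Prime ∧ l ≠ 2 ∧ l ∣ 3 ^ (2 * n + 1) - 1 ∧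
    ∀ d : ℕ, 0 < d → l ∣ 2 ^ (2 * d) - 1 → 16 ≤ 2 ^ d := by
  have h8 := q_mod n
  have h5 := q_mod5 n
  have h7 := q_mod7 n
  have h27 : 27 ≤ 3 ^ (2 * n + 1) := by
    calc 27 = 3 ^ 3 := rfl
      _ ≤ 3 ^ (2 * n + 1) := Nat.pow_le_pow_right (by norm_num) (by omega)
  have h3 : 3 ∣ 3 ^ (2 * n + 1) := dvd_pow_self 3 (by omega)
  generalize 3 ^ (2 * n + 1) = q at *
  obtain ⟨l, hl, hld⟩ := Nat.exists_prime_and_dvd (n := (q - 1) / 2) (by omega)
  have hlq : l ∣ q - 1 := by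
    have h1 : q - 1 = 2 * ((q - 1) / 2) := by omega
    rw [h1]
    exact hld.mul_left 2
  have hl2 : l ≠ 2 := by rintro rfl; omega
  have hl3 : l ≠ 3 := by rintro rfl; omega
  have hl5 : l ≠ 5 := by rintro rfl; omega
  have hl7 : l ≠ 7 := by rintro rfl; omega
  refine ⟨l, hl, hl2, hlq, fun d hd hdd => ?_⟩
  by_contra hcon
  push Not at hcon
  have hd4 : d < 4 := by
    by_contra h
    push Not at h
    have := Nat.pow_le_pow_right (n := 2) (by norm_num) h
    omega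
  interval_cases d
  · norm_num at hdd
    exact hl3 ((Nat.prime_dvd_prime_iff_eq hl (by norm_num)).1 hdd)
  · norm_num at hdd
    rw [show 15 = 3 * 5 from rfl] at hdd
    rcases hl.dvd_mul.1 hdd with h | h
    · exact hl3 ((Nat.prime_dvd_prime_iff_eq hl (by norm_num)).1 h)
    · exact hl5 ((Nat.prime_dvd_prime_iff_eq hl (by norm_num)).1 h)
  · norm_num at hdd
    rw [show 63 = 3 * (3 * 7) from rfl] at hdd
    rcases hl.dvd_mul.1 hdd with h | h
    · exact hl3 ((Nat.prime_dvd_prime_iff_eq hl (by norm_num)).1 h)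
    · rcases hl.dvd_mul.1 h with h | h
      · exact hl3 ((Nat.prime_dvd_prime_iff_eq hl (by norm_num)).1 h)
      · exact hl7 ((Nat.prime_dvd_prime_iff_eq hl (by norm_num)).1 h)

variable {F : Type*} [Field F] [Fintype F] {n : ℕ}

local notation "SL2" => SpecialLinearGroup (Fin 2) F
local notation "PSL2" => ProjectiveSpecialLinearGroup (Fin 2) F

theorem two_ne (hF : Fintype.card F = 3 ^ (2 * n + 1)) : (2 : F) ≠ 0 :=
  H58.SL2Prod.two_ne_zero_of_odd (by rw [hF]; exact Odd.pow (by decide))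

theorem neg_one (hF : Fintype.card F = 3 ^ (2 * n + 1)) (c : F) : c * c ≠ -1 := by
  intro h
  have h1 : IsSquare (-1 : F) := ⟨c, h.symm⟩
  rw [FiniteField.isSquare_neg_one_iff, hF] at h1
  have := q_mod n
  omega

theorem mk_eq {s t : SL2} (h : (QuotientGroup.mk s : PSL2) = QuotientGroup.mk t) : s = t ∨ s = -t := by
  rw [QuotientGroup.eq, H45.SL2.mem_center_iff] at h
  rcases h with h | h
  · left
    rw [inv_mul_eq_one] at h
    exact h
  · right
    have h1 : t = s * -1 := by rw [← h]; group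
    rw [h1, mul_neg, mul_one, neg_neg]

theorem psl_el (hF : Fintype.card F = 3 ^ (2 * n + 1)) (E : Subgroup PSL2)
    (h2 : ∀ a ∈ E, a * a = 1) : Nat.card E ≤ 4 := by
  have hf2 : Fact (Nat.Prime 2) := ⟨Nat.prime_two⟩
  have hE : IsPGroup 2 E := fun a => ⟨1, by rw [pow_one, sq]; exact Subtype.ext (h2 a.1 a.2)⟩
  obtain ⟨k, hk⟩ := hE.exists_card_eq
  have h1 := H6.SLCard.card_psl (F := F) (n := 2) (by norm_num)
  rw [Fin.prod_univ_two, hF] at h1
  have hq := q_mod n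
  have hdvd : Nat.card E ∣ Nat.card PSL2 := card_subgroup_dvd_card E
  have h27 : 3 ≤ 3 ^ (2 * n + 1) := by
    calc 3 = 3 ^ 1 := rfl
      _ ≤ 3 ^ (2 * n + 1) := Nat.pow_le_pow_right (by norm_num) (by omega)
  generalize 3 ^ (2 * n + 1) = q at *
  simp only [Fin.val_zero, Fin.val_one, pow_zero, pow_one] at h1
  obtain ⟨j, rfl⟩ : ∃ j, q = 8 * j + 3 := ⟨q / 8, by omega⟩
  have hg : Nat.gcd 2 (8 * j + 3 - 1) = 2 := Nat.gcd_eq_left ⟨4 * j + 1, by omega⟩
  rw [hg] at h1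
  have e1 : 8 * j + 3 - 1 = 2 * (4 * j + 1) := by omega
  have e2 : (8 * j + 3) ^ 2 - 1 = 8 * ((4 * j + 1) * (2 * j + 1)) := by
    have : (8 * j + 3) ^ 2 = 8 * ((4 * j + 1) * (2 * j + 1)) + 1 := by ring
    omega
  have e3 : (8 * j + 3) ^ 2 - (8 * j + 3) = (8 * j + 3) * (2 * (4 * j + 1)) := by
    have : (8 * j + 3) ^ 2 = (8 * j + 3) * (2 * (4 * j + 1)) + (8 * j + 3) := by ring
    omega
  rw [e2, e3, e1] at h1
  have h4 : Nat.card PSL2 = 4 * ((4 * j + 1) * (2 * j + 1) * (8 * j + 3)) := by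
    have h5 : (4 * (4 * j + 1)) * Nat.card PSL2 = (4 * (4 * j + 1)) * (4 * ((4 * j + 1) * (2 * j + 1) * (8 * j + 3))) := by
      linarith [h1]
    exact Nat.eq_of_mul_eq_mul_left (by positivity) h5
  rw [hk]
  by_contra hcon
  push Not at hcon
  have hk3 : 3 ≤ k := by
    by_contra h
    push Not at h
    have := Nat.pow_le_pow_right (n := 2) (by norm_num) (show k ≤ 2 by omega)
    omega
  have h8 : 8 ∣ Nat.card PSL2 := by
    have h6 : 2 ^ 3 ∣ 2 ^ k := pow_dvd_pow 2 hk3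
    rw [← hk] at h6
    exact h6.trans hdvd
  rw [h4, show 8 = 4 * 2 from rfl, Nat.mul_dvd_mul_iff_left (by norm_num)] at h8
  have h9 : Odd ((4 * j + 1) * (2 * j + 1) * (8 * j + 3)) := by
    apply Odd.mul
    · apply Odd.mul
      · exact ⟨2 * j, by ring⟩
      · exact ⟨j, by ring⟩
    · exact ⟨4 * j + 1, by ring⟩
  exact (Nat.not_even_iff_odd.2 h9) (even_iff_two_dvd.2 h8)

/-- the diagonal matrices -/
def dg (a : Fˣ) : SL2 := H45.SL2.mk2 (a : F) 0 0 ((a⁻¹ : Fˣ) : F) (by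
  rw [← Units.val_mul, mul_inv_cancel, Units.val_one]; ring)

theorem dg_00 (a : Fˣ) : (dg a : SL2).1 0 0 = a := rfl
theorem dg_01 (a : Fˣ) : (dg a : SL2).1 0 1 = 0 := rfl
theorem dg_10 (a : Fˣ) : (dg a : SL2).1 1 0 = 0 := rfl
theorem dg_11 (a : Fˣ) : (dg a : SL2).1 1 1 = ((a⁻¹ : Fˣ) : F) := rfl

theorem dg_mul (a b : Fˣ) : dg a * dg b = dg (a * b) := by
  apply H45.SL2.ext4
  · rw [H45.SL2.mul_00, dg_00, dg_00, dg_00, dg_01, dg_10, Units.val_mul]; ring
  · rw [H45.SL2.mul_01, dg_00, dg_01, dg_01, dg_01, dg_11]; ring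
  · rw [H45.SL2.mul_10, dg_10, dg_00, dg_10, dg_10, dg_11]; ring
  · rw [H45.SL2.mul_11, dg_10, dg_01, dg_11, dg_11, dg_11, mul_inv, Units.val_mul]; ring

/-- the Weyl element -/
def ww : SL2 := H45.SL2.mk2 0 1 (-1) 0 (by ring)

theorem ww_00 : (ww : SL2).1 0 0 = 0 := rfl
theorem ww_01 : (ww : SL2).1 0 1 = 1 := rfl
theorem ww_10 : (ww : SL2).1 1 0 = -1 := rfl
theorem ww_11 : (ww : SL2).1 1 1 = 0 := rfl

theorem ww_sq : ww * ww = (-1 : SL2) := by
  apply H45.SL2.sq_of_tr_zero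
  unfold H45.SL2.tr
  rw [ww_00, ww_11, add_zero]

theorem ww_dg (a : Fˣ) : ww * dg a = dg a⁻¹ * ww := by
  apply H45.SL2.ext4
  · rw [H45.SL2.mul_00, H45.SL2.mul_00, ww_00, ww_01, ww_10, dg_00, dg_10, dg_00, dg_01]; ring
  · rw [H45.SL2.mul_01, H45.SL2.mul_01, ww_00, ww_01, ww_11, dg_01, dg_11, dg_00, dg_01]; ring
  · rw [H45.SL2.mul_10, H45.SL2.mul_10, ww_00, ww_10, ww_11, dg_00, dg_10, dg_11, dg_10, inv_inv]; ring
  · rw [H45.SL2.mul_11, H45.SL2.mul_11, ww_01, ww_10, ww_11, dg_01, dg_11, dg_10, dg_11]; ring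

theorem psl_inv (hF : Fintype.card F = 3 ^ (2 * n + 1)) {l : ℕ} (hl : l.Prime) (hl2 : l ≠ 2)
    (hld : l ∣ 3 ^ (2 * n + 1) - 1) {t : PSL2} (ht : t ≠ 1) (htt : t * t = 1) :
    ∃ x : PSL2, orderOf x = l ∧ t * x * t⁻¹ = x⁻¹ ∧ Odd (Nat.card (centralizer ({x} : Set PSL2))) := by
  have hf : Fact l.Prime := ⟨hl⟩
  have h2 := two_ne hF
  -- the element of order `l`
  have hcu : Nat.card Fˣ = 3 ^ (2 * n + 1) - 1 := by
    classical
    rw [Nat.card_eq_fintype_card, Fintype.card_units, hF]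
  obtain ⟨a, ha⟩ := exists_prime_orderOf_dvd_card' (G := Fˣ) l (by rw [hcu]; exact hld)
  let φ : Fˣ →* PSL2 := MonoidHom.mk' (fun a => QuotientGroup.mk (dg a)) (by
    intro a b
    rw [← dg_mul]
    rfl)
  have hφ : ∀ a, φ a = QuotientGroup.mk (dg a) := fun _ => rfl
  have ha2 : (a : F) * a ≠ 1 := by
    intro h
    have h3 : a ^ 2 = 1 := by
      apply Units.ext
      rw [Units.val_pow_eq_pow_val, sq, h]
      rfl
    have h4 := orderOf_dvd_of_pow_eq_one h3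
    rw [ha] at h4
    rcases (Nat.dvd_prime Nat.prime_two).1 h4 with h5 | h5
    · exact hl.one_lt.ne' h5
    · exact hl2 h5
  set x₀ : PSL2 := φ a with hx₀
  have hx1 : x₀ ≠ 1 := by
    intro h
    rw [hx₀, hφ] at h
    have h3 : (QuotientGroup.mk (dg a) : PSL2) = QuotientGroup.mk (1 : SL2) := h
    rcases mk_eq h3 with h4 | h4
    · have h5 : (dg a : SL2).1 0 0 = (1 : SL2).1 0 0 := by rw [h4]
      rw [dg_00, H45.SL2.one_00] at h5
      exact ha2 (by rw [h5]; ring)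
    · have h5 : (dg a : SL2).1 0 0 = (-1 : SL2).1 0 0 := by rw [h4]
      rw [dg_00, H45.SL2.neg_ij, H45.SL2.one_00] at h5
      exact ha2 (by rw [h5]; ring)
  have hxl : orderOf x₀ = l := orderOf_eq_prime (by rw [hx₀, ← map_pow, ← ha, pow_orderOf_eq_one, map_one]) hx1
  set t₀ : PSL2 := QuotientGroup.mk ww with ht₀
  have ht₀x : t₀ * x₀ * t₀⁻¹ = x₀⁻¹ := by
    have h3 : t₀ * x₀ = x₀⁻¹ * t₀ := by
      rw [hx₀, ← map_inv, hφ, hφ, ht₀, ← QuotientGroup.mk_mul, ← QuotientGroup.mk_mul, ww_dg]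
    rw [h3, mul_inv_cancel_right]
  -- the involutions are conjugate
  obtain ⟨s, rfl⟩ := QuotientGroup.mk_surjective t
  have hss : s * s = -1 := H17.SL2Four.lift_invol h2 s ht htt
  obtain ⟨g, hg⟩ := isConj_iff.1 (H58.SL2Prod.isConj_of_sq h2 ww_sq hss)
  set γ : PSL2 := QuotientGroup.mk g with hγ
  have hγt : γ * t₀ * γ⁻¹ = QuotientGroup.mk s := by
    rw [hγ, ht₀, ← hg]
    rfl
  have hcen : Odd (Nat.card (centralizer ({x₀} : Set PSL2))) := by
    by_contra hcon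
    rw [Nat.not_odd_iff_even, even_iff_two_dvd] at hcon
    have hf2 : Fact (Nat.Prime 2) := ⟨Nat.prime_two⟩
    obtain ⟨z, hz⟩ := exists_prime_orderOf_dvd_card' (G := centralizer ({x₀} : Set PSL2)) 2 hcon
    have hzo : orderOf (z : PSL2) = 2 := by rw [Subgroup.orderOf_coe]; exact hz
    have hz1 : (z : PSL2) ≠ 1 := by
      intro h; rw [h, orderOf_one] at hzo; norm_num at hzo
    have hzz : (z : PSL2) * z = 1 := by
      have := pow_orderOf_eq_one (z : PSL2)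
      rwa [hzo, sq] at this
    have hzc := mem_centralizer_singleton_iff.1 z.2
    obtain ⟨v, hv⟩ := QuotientGroup.mk_surjective (z : PSL2)
    rw [← hv] at hz1 hzz hzc
    have hvv : v * v = -1 := H17.SL2Four.lift_invol h2 v hz1 hzz
    have htr : v.1 1 1 = - v.1 0 0 := by
      have h3 := H58.SL2Prod.tr_zero_of_sq hvv
      rw [H45.SL2.tr] at h3
      linear_combination h3
    have h00 : (v * v).1 0 0 = (-1 : SL2).1 0 0 := by rw [hvv]
    rw [H45.SL2.mul_00, H45.SL2.neg_ij, H45.SL2.one_00] at h00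
    have h3 : (QuotientGroup.mk (v * dg a) : PSL2) = QuotientGroup.mk (dg a * v) := hzc
    have hane : (a : F) ≠ 0 := a.ne_zero
    have hai : (a : F) * ((a⁻¹ : Fˣ) : F) = 1 := by rw [← Units.val_mul, mul_inv_cancel, Units.val_one]
    rcases mk_eq h3 with h4 | h4
    · have h5 : (v * dg a).1 0 1 = (dg a * v).1 0 1 := by rw [h4]
      rw [H45.SL2.mul_01, H45.SL2.mul_01, dg_00, dg_01, dg_11] at h5
      have h6 : v.1 0 1 * (1 - a * a) = 0 := by
        linear_combination (a : F) * h5 - v.1 0 1 * hai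
      have h7 : v.1 0 1 = 0 := by
        rcases mul_eq_zero.1 h6 with h8 | h8
        · exact h8
        · exact absurd (sub_eq_zero.1 h8).symm ha2
      rw [h7, zero_mul, add_zero] at h00
      exact neg_one hF _ h00
    · have h5 : (v * dg a).1 0 0 = (-(dg a * v)).1 0 0 := by rw [h4]
      rw [H45.SL2.neg_ij, H45.SL2.mul_00, H45.SL2.mul_00, dg_00, dg_01, dg_10] at h5
      have h6 : v.1 0 0 = 0 := by
        have h7 : 2 * (v.1 0 0 * a) = 0 := by linear_combination h5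
        rcases mul_eq_zero.1 h7 with h8 | h8
        · exact absurd h8 h2
        · rcases mul_eq_zero.1 h8 with h9 | h9
          · exact h9
          · exact absurd h9 hane
      have h7 : (v * dg a).1 0 1 = (-(dg a * v)).1 0 1 := by rw [h4]
      rw [H45.SL2.neg_ij, H45.SL2.mul_01, H45.SL2.mul_01, dg_00, dg_01, dg_11] at h7
      rw [h6, zero_mul, zero_add] at h00
      have h8 : v.1 0 1 ≠ 0 := by
        intro h9
        rw [h9, zero_mul] at h00
        have : (1 : F) = 0 := by linear_combination h00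
        exact one_ne_zero this
      have h10 : v.1 0 1 * (1 + a * a) = 0 := by
        linear_combination (a : F) * h7 - v.1 0 1 * hai
      rcases mul_eq_zero.1 h10 with h11 | h11
      · exact h8 h11
      · exact neg_one hF a (by linear_combination h11)
  refine ⟨γ * x₀ * γ⁻¹, ?_, ?_, ?_⟩
  · rw [← hxl]
    exact MulEquiv.orderOf_eq (MulAut.conj γ) x₀
  · rw [← hγt]
    calc γ * t₀ * γ⁻¹ * (γ * x₀ * γ⁻¹) * (γ * t₀ * γ⁻¹)⁻¹ = γ * (t₀ * x₀ * t₀⁻¹) * γ⁻¹ := by group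
      _ = _ := by rw [ht₀x]; group
  · have h1 : (centralizer ({x₀} : Set PSL2)).map (MulAut.conj γ).toMonoidHom =
        centralizer ({γ * x₀ * γ⁻¹} : Set PSL2) := by
      ext y
      constructor
      · rintro ⟨z, hz, rfl⟩
        rw [SetLike.mem_coe, mem_centralizer_singleton_iff] at hz
        rw [mem_centralizer_singleton_iff]
        change γ * z * γ⁻¹ * (γ * x₀ * γ⁻¹) = γ * x₀ * γ⁻¹ * (γ * z * γ⁻¹)
        calc γ * z * γ⁻¹ * (γ * x₀ * γ⁻¹) = γ * (z * x₀) * γ⁻¹ := by group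
          _ = γ * (x₀ * z) * γ⁻¹ := by rw [hz]
          _ = _ := by group
      · intro hy
        rw [mem_centralizer_singleton_iff] at hy
        refine ⟨γ⁻¹ * y * γ, ?_, ?_⟩
        · rw [SetLike.mem_coe, mem_centralizer_singleton_iff]
          calc γ⁻¹ * y * γ * x₀ = γ⁻¹ * (y * (γ * x₀ * γ⁻¹)) * γ := by group
            _ = γ⁻¹ * (γ * x₀ * γ⁻¹ * y) * γ := by rw [hy]
            _ = _ := by group
        · change γ * (γ⁻¹ * y * γ) * γ⁻¹ = y
          group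
    rw [← h1, ← Nat.card_congr ((centralizer ({x₀} : Set PSL2)).equivMapOfInjective
      (MulAut.conj γ).toMonoidHom (MulAut.conj γ).injective).toEquiv]
    exact hcen

theorem tfact_psl (hn : 1 ≤ n) (hF : Fintype.card F = 3 ^ (2 * n + 1)) : TFact PSL2 16 where
  four := by norm_num
  el := by
    intro E _ h2
    calc Nat.card E ^ 2 ≤ 4 ^ 2 := Nat.pow_le_pow_left (psl_el hF E h2) 2
      _ = 16 := rfl
  inv := by
    intro t ht htt
    obtain ⟨l, hl, hl2, hld, hlk⟩ := zsig3 hn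
    obtain ⟨x, hx1, hx2, hx3⟩ := psl_inv hF hl hl2 hld ht htt
    exact ⟨x, by rwa [hx1], by rwa [hx1], hx2, hx3, fun d hd hdd => hlk d hd (by rwa [hx1] at hdd)⟩

end H8.TF
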