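import Cfsg.Agent.Lib.H8.TF2
import Cfsg.Agent.Lib.H14.SFS4
import Cfsg.Agent.Lib.H40.SzAut
import Cfsg.Agent.Lib.H4.Burnside

/-! 2-elements act as inner automorphisms (`S₄`-free groups, simple groups `Sz(q)` and `PSL₂(3^(2n+1))`). -/

set_option autoImplicit false

namespace H8.TF

open Cfsg Subgroup H14.GF Matrix

section S4

variable {F : Type*} [Field F] [Fintype F] {n : ℕ}

local notation "SL2" => SpecialLinearGroup (Fin 2) F
local notation "PSL2" => ProjectiveSpecialLinearGroup (Fin 2) F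

omit [Fintype F] in
theorem semi_eq (d : GL (Fin 2) F) {s t : SL2}
    (h : (d : Matrix (Fin 2) (Fin 2) F) * (s : Matrix (Fin 2) (Fin 2) F) =
      (t : Matrix (Fin 2) (Fin 2) F) * (d : Matrix (Fin 2) (Fin 2) F)) :
    H50.PSLBasic.semiSL d (RingEquiv.refl F) s = t := by
  apply Subtype.ext
  change (d : Matrix (Fin 2) (Fin 2) F) * (s : Matrix (Fin 2) (Fin 2) F).map (RingEquiv.refl F) *
    ((d⁻¹ : GL (Fin 2) F) : Matrix (Fin 2) (Fin 2) F) = (t : Matrix (Fin 2) (Fin 2) F)
  have h1 : (s : Matrix (Fin 2) (Fin 2) F).map (RingEquiv.refl F) = (s : Matrix (Fin 2) (Fin 2) F) := rfl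
  rw [h1, h, Matrix.mul_assoc, ← Units.val_mul, mul_inv_cancel, Units.val_one, Matrix.mul_one]

theorem three_zero (hF : Fintype.card F = 3 ^ (2 * n + 1)) : (3 : F) = 0 := by
  have h1 : ((Fintype.card F : ℕ) : F) = 0 := Nat.cast_card_eq_zero F
  rw [hF] at h1
  push_cast at h1
  exact pow_eq_zero_iff (by omega) |>.1 h1

/-- the quaternion `j` -/
def jj (h3 : (3 : F) = 0) : SL2 := H45.SL2.mk2 1 1 1 (-1) (by linear_combination -h3)

/-- the element of order three -/
def cc : SL2 := H45.SL2.mk2 0 1 (-1) (-1) (by ring)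

/-- the diagonal matrix -/
def dd : GL (Fin 2) F := ⟨!![-1, 0; 0, 1], !![-1, 0; 0, 1], by
  ext i j; fin_cases i <;> fin_cases j <;> simp, by
  ext i j; fin_cases i <;> fin_cases j <;> simp⟩

omit [Fintype F] in
theorem dd_ww : H50.PSLBasic.semiSL dd (RingEquiv.refl F) (ww : SL2) = -ww := by
  apply semi_eq
  change (!![-1, 0; 0, 1] : Matrix (Fin 2) (Fin 2) F) * !![0, 1; -1, 0] = (-!![0, 1; -1, 0]) * !![-1, 0; 0, 1]
  ext i j; fin_cases i <;> fin_cases j <;> simp

omit [Fintype F] in
theorem dd_jj (h3 : (3 : F) = 0) : H50.PSLBasic.semiSL dd (RingEquiv.refl F) (jj h3 : SL2) = ww * jj h3 := by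
  apply semi_eq
  change (!![-1, 0; 0, 1] : Matrix (Fin 2) (Fin 2) F) * !![1, 1; 1, -1] =
    (!![0, 1; -1, 0] * !![1, 1; 1, -1]) * !![-1, 0; 0, 1]
  ext i j; fin_cases i <;> fin_cases j <;> simp

omit [Fintype F] in
theorem jj_sq (h3 : (3 : F) = 0) : jj h3 * jj h3 = (-1 : SL2) := by
  apply H45.SL2.sq_of_tr_zero
  change (1 : F) + -1 = 0
  ring

omit [Fintype F] in
theorem wwjj (h3 : (3 : F) = 0) : (jj h3 * ww : SL2) = - (ww * jj h3) := by
  apply Subtype.ext
  change (!![1, 1; 1, -1] : Matrix (Fin 2) (Fin 2) F) * !![0, 1; -1, 0] = - (!![0, 1; -1, 0] * !![1, 1; 1, -1])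
  ext i j; fin_cases i <;> fin_cases j <;> simp

omit [Fintype F] in
theorem cc_ww (h3 : (3 : F) = 0) : (cc * ww : SL2) = jj h3 * cc := by
  apply Subtype.ext
  change (!![0, 1; -1, -1] : Matrix (Fin 2) (Fin 2) F) * !![0, 1; -1, 0] = !![1, 1; 1, -1] * !![0, 1; -1, -1]
  ext i j; fin_cases i <;> fin_cases j <;> simp
  linear_combination -h3

omit [Fintype F] in
theorem cc_jj (h3 : (3 : F) = 0) : (cc * jj h3 : SL2) = ww * jj h3 * cc := by
  apply Subtype.ext
  change (!![0, 1; -1, -1] : Matrix (Fin 2) (Fin 2) F) * !![1, 1; 1, -1] =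
    (!![0, 1; -1, 0] * !![1, 1; 1, -1]) * !![0, 1; -1, -1]
  ext i j; fin_cases i <;> fin_cases j <;> simp
  · linear_combination -h3
  · linear_combination -h3

theorem units_sq (hF : Fintype.card F = 3 ^ (2 * n + 1)) (u : Fˣ) :
    u ∈ (powMonoidHom 2 : Fˣ →* Fˣ).range ∨ -u ∈ (powMonoidHom 2 : Fˣ →* Fˣ).range := by
  classical
  have h2 := two_ne hF
  have hchar : ringChar F ≠ 2 := by
    intro h
    apply h2
    have := ringChar.spec F 2
    rw [h] at this
    exact_mod_cast this.2 dvd_rfl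
  have key : ∀ v : Fˣ, IsSquare (v : F) → v ∈ (powMonoidHom 2 : Fˣ →* Fˣ).range := by
    rintro v ⟨c, hc⟩
    have hc0 : c ≠ 0 := by
      rintro rfl
      rw [mul_zero] at hc
      exact v.ne_zero hc
    exact ⟨Units.mk0 c hc0, Units.ext (by simp [hc, sq])⟩
  by_cases h : IsSquare (u : F)
  · exact Or.inl (key u h)
  · right
    apply key
    have h1 : quadraticChar F (u : F) = -1 := quadraticChar_neg_one_iff_not_isSquare.2 h
    have h3 : quadraticChar F (-1 : F) = -1 := by
      rw [quadraticChar_neg_one_iff_not_isSquare]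
      rintro ⟨c, hc⟩
      exact neg_one hF c hc.symm
    have h4 : quadraticChar F (-(u : F)) = 1 := by
      rw [← neg_one_mul, map_mul, h1, h3]; norm_num
    rw [Units.val_neg]
    exact (quadraticChar_one_iff_isSquare (neg_ne_zero.2 u.ne_zero)).1 h4

/-- if an element acts as the diagonal automorphism then `S₄` is involved -/
theorem involves_of_dd {G : Type*} [Group G] [Finite G] (hF : Fintype.card F = 3 ^ (2 * n + 1)) (T : Subgroup G)
    (e : T ≃* PSL2) (b : G) (hb : ∀ x : T, b * (x : G) * b⁻¹ = (e.symm (H50.PSLBasic.psi dd (RingEquiv.refl F) (e x)) : T)) :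
    Involves (Equiv.Perm (Fin 4)) G := by
  have h3 := three_zero hF
  have h2 := two_ne hF
  have hneg : ∀ s : SL2, (QuotientGroup.mk (-s) : PSL2) = QuotientGroup.mk s := by
    intro s
    rw [QuotientGroup.eq, H45.SL2.mem_center_iff]
    right
    rw [inv_neg, neg_mul, inv_mul_cancel]
  have hneg1 : (QuotientGroup.mk (-1 : SL2) : PSL2) = 1 := hneg 1
  set f : SL2 → G := fun s => ((e.symm (QuotientGroup.mk s) : T) : G) with hf
  have hfmul : ∀ s t, f (s * t) = f s * f t := by
    intro s t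
    simp only [hf]
    rw [QuotientGroup.mk_mul, map_mul, Subgroup.coe_mul]
  have hf1 : f 1 = 1 := by
    simp only [hf]
    rw [QuotientGroup.mk_one, map_one, Subgroup.coe_one]
  have hfneg : ∀ s, f (-s) = f s := by
    intro s
    simp only [hf]
    rw [hneg]
  have hfinv : ∀ s, f s⁻¹ = (f s)⁻¹ := by
    intro s
    apply eq_inv_of_mul_eq_one_left
    rw [← hfmul, inv_mul_cancel, hf1]
  have hinj : ∀ s t, f s = f t → s = t ∨ s = -t := by
    intro s t h
    exact mk_eq (e.symm.injective (Subtype.ext h))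
  have hb' : ∀ s, b * f s * b⁻¹ = f (H50.PSLBasic.semiSL dd (RingEquiv.refl F) s) := by
    intro s
    simp only [hf]
    rw [hb, MulEquiv.apply_symm_apply, H50.PSLBasic.psi_mk]
  set u := f ww with hu
  set w := f (jj h3) with hw
  set c := f cc with hc
  have huu : u * u = 1 := by rw [hu, ← hfmul, ww_sq, hfneg, hf1]
  have hww : w * w = 1 := by rw [hw, ← hfmul, jj_sq, hfneg, hf1]
  have huw : w * u = u * w := by rw [hu, hw, ← hfmul, ← hfmul, wwjj, hfneg]
  have hbu : b * u * b⁻¹ = u := by rw [hu, hb', dd_ww, hfneg]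
  have hbw : b * w * b⁻¹ = u * w := by rw [hw, hb', dd_jj, hfmul]
  have hcu : c * u * c⁻¹ = w := by rw [hu, hw, hc, ← hfmul, cc_ww h3, hfmul, mul_inv_cancel_right]
  have hcw : c * w * c⁻¹ = u * w := by rw [hu, hw, hc, ← hfmul, cc_jj h3, hfmul, hfmul, mul_inv_cancel_right]
  have hcuw : c * (u * w) * c⁻¹ = u := by
    have : c * (u * w) * c⁻¹ = (c * u * c⁻¹) * (c * w * c⁻¹) := by group
    rw [this, hcu, hcw, ← huw, ← mul_assoc, hww, one_mul]
  have hbuw : b * (u * w) * b⁻¹ = w := by
    have : b * (u * w) * b⁻¹ = (b * u * b⁻¹) * (b * w * b⁻¹) := by group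
    rw [this, hbu, hbw, ← mul_assoc, huu, one_mul]
  have h10 : (1 : F) ≠ 0 := one_ne_zero
  have hu1 : u ≠ 1 := by
    intro h
    rw [hu, ← hf1] at h
    rcases hinj _ _ h with h4 | h4
    · have h5 : (ww : SL2).1 0 1 = (1 : SL2).1 0 1 := by rw [h4]
      rw [ww_01, H45.SL2.one_01] at h5
      exact h10 h5
    · have h5 : (ww : SL2).1 0 1 = (-1 : SL2).1 0 1 := by rw [h4]
      rw [ww_01, H45.SL2.neg_ij, H45.SL2.one_01, neg_zero] at h5
      exact h10 h5
  have hw1 : w ≠ 1 := by
    intro h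
    apply hu1
    have : u = c⁻¹ * (c * u * c⁻¹) * c := by group
    rw [this, hcu, h]; group
  have huw1 : u * w ≠ 1 := by
    intro h
    apply hw1
    have : w = c⁻¹ * (c * w * c⁻¹) * c := by group
    rw [this, hcw, h]; group
  -- the four-group
  let Y : Subgroup G :=
    { carrier := {x | x = 1 ∨ x = u ∨ x = w ∨ x = u * w}
      one_mem' := Or.inl rfl
      mul_mem' := by
        have e1 : u * (u * w) = w := by rw [← mul_assoc, huu, one_mul]
        have e2 : w * (u * w) = u := by rw [← mul_assoc, huw, mul_assoc, hww, mul_one]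
        have e3 : u * w * u = w := by rw [mul_assoc, huw, e1]
        have e4 : u * w * w = u := by rw [mul_assoc, hww, mul_one]
        have e5 : u * w * (u * w) = 1 := by rw [mul_assoc, e2, huu]
        rintro x y (rfl | rfl | rfl | rfl) (rfl | rfl | rfl | rfl)
        · left; rw [one_mul]
        · right; left; rw [one_mul]
        · right; right; left; rw [one_mul]
        · right; right; right; rw [one_mul]
        · right; left; rw [mul_one]
        · left; exact huu
        · right; right; right; rfl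
        · right; right; left; exact e1
        · right; right; left; rw [mul_one]
        · right; right; right; exact huw
        · left; exact hww
        · right; left; exact e2
        · right; right; right; rw [mul_one]
        · right; right; left; exact e3
        · right; left; exact e4
        · left; exact e5
      inv_mem' := by
        have e5 : u * w * (u * w) = 1 := by
          have e2 : w * (u * w) = u := by rw [← mul_assoc, huw, mul_assoc, hww, mul_one]
          rw [mul_assoc, e2, huu]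
        rintro x (rfl | rfl | rfl | rfl)
        · left; rw [inv_one]
        · right; left; exact inv_eq_of_mul_eq_one_left huu
        · right; right; left; exact inv_eq_of_mul_eq_one_left hww
        · right; right; right; exact inv_eq_of_mul_eq_one_left e5 }
  have hY : ∀ x, x ∈ Y ↔ (x = 1 ∨ x = u ∨ x = w ∨ x = u * w) := fun x => Iff.rfl
  have e1 : u * (u * w) = w := by rw [← mul_assoc, huu, one_mul]
  have e2 : w * (u * w) = u := by rw [← mul_assoc, huw, mul_assoc, hww, mul_one]
  have e3 : u * w * u = w := by rw [mul_assoc, huw, e1]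
  have e4 : u * w * w = u := by rw [mul_assoc, hww, mul_one]
  have e5 : u * w * (u * w) = 1 := by rw [mul_assoc, e2, huu]
  refine H14.SFS4.involves_S4_of_pair (Y := Y) (Z := ⊥) (u := u) (w := w) (r := c * b * c⁻¹) (s := b) ?_ ?_ bot_le
    (Or.inr (Or.inl rfl)) (Or.inr (Or.inr (Or.inl rfl))) ?_ ?_ ?_ ?_ ?_ ?_ ?_ ?_ ?_
  · rintro x (rfl | rfl | rfl | rfl) y (rfl | rfl | rfl | rfl)
    · rfl
    · rw [one_mul, mul_one]
    · rw [one_mul, mul_one]
    · rw [one_mul, mul_one]
    · rw [one_mul, mul_one]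
    · rfl
    · exact huw.symm
    · rw [e1, e3]
    · rw [one_mul, mul_one]
    · exact huw
    · rfl
    · rw [e2, e4]
    · rw [one_mul, mul_one]
    · rw [e1, e3]
    · rw [e2, e4]
    · rfl
  · rintro x (rfl | rfl | rfl | rfl)
    · rw [one_mul]
    · exact huu
    · exact hww
    · exact e5
  · rwa [mem_bot]
  · rwa [mem_bot]
  · rwa [mem_bot]
  · rw [normalizer_eq_top]; trivial
  · rw [normalizer_eq_top]; trivial
  · rw [mem_bot]
    have h4 : c * b * c⁻¹ * u * (c * b * c⁻¹)⁻¹ = u * w := by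
      calc c * b * c⁻¹ * u * (c * b * c⁻¹)⁻¹ = c * (b * (c⁻¹ * u * c) * b⁻¹) * c⁻¹ := by group
        _ = c * (b * (c⁻¹ * (c * (u * w) * c⁻¹) * c) * b⁻¹) * c⁻¹ := by rw [hcuw]
        _ = c * (b * (u * w) * b⁻¹) * c⁻¹ := by group
        _ = _ := by rw [hbuw, hcw]
    rw [h4, e5]
  · rw [mem_bot]
    have h4 : c * b * c⁻¹ * w * (c * b * c⁻¹)⁻¹ = w := by
      calc c * b * c⁻¹ * w * (c * b * c⁻¹)⁻¹ = c * (b * (c⁻¹ * w * c) * b⁻¹) * c⁻¹ := by group
        _ = c * (b * (c⁻¹ * (c * u * c⁻¹) * c) * b⁻¹) * c⁻¹ := by rw [hcu]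
        _ = c * (b * u * b⁻¹) * c⁻¹ := by group
        _ = _ := by rw [hbu, hcu]
    rw [h4, hww]
  · rw [mem_bot, hbu, huu]
  · rw [mem_bot, hbw, e5]

end S4

end H8.TF
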