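import Cfsg.Agent.Lib.H8.TF3

/-! Final theorems on the simple groups `Sz(q)` and `PSL₂(3^(2n+1))`. -/

set_option autoImplicit false

universe u

namespace H8.TF

open Cfsg Subgroup H14.GF Matrix

theorem card_ne_twelve {T : Type u} [Group T] [Finite T] [IsSimpleGroup T] : Nat.card T ≠ 12 := by
  intro h
  have hs : Group.IsSolvable T := H4.Burnside.isSolvable_of_card_eq 2 3 Nat.prime_two Nat.prime_three _ T rfl
    ⟨2, 1, by rw [h]; norm_num⟩
  have hc := IsSimpleGroup.comm_iff_isSolvable.2 hs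
  letI : CommGroup T := { (inferInstance : Group T) with mul_comm := hc }
  have hp : (Nat.card T).Prime := IsSimpleGroup.prime_card
  rw [h] at hp
  norm_num at hp

theorem one_le_of_simple {F : Type*} [Field F] [Fintype F] {n : ℕ} (hF : Fintype.card F = 3 ^ (2 * n + 1))
    {T : Type u} [Group T] [Finite T] [IsSimpleGroup T] (e : T ≃* ProjectiveSpecialLinearGroup (Fin 2) F) : 1 ≤ n := by
  by_contra hn
  have h0 : n = 0 := by omega
  subst h0
  apply card_ne_twelve (T := T)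
  rw [Nat.card_congr e.toEquiv]
  have h1 := H6.SLCard.card_psl (F := F) (n := 2) (by norm_num)
  rw [Fin.prod_univ_two, hF] at h1
  norm_num at h1
  omega

/-- **Module A1** -/
theorem tfact {T : Type u} [Group T] [Finite T] [IsSimpleGroup T] (hT : IsSuzukiOrPSL2OddPowerThree T) :
    ∃ Q, TFact T Q := by
  rcases hT with ⟨F, _, _, m, hm, hF, ⟨e⟩⟩ | ⟨F, _, _, n, hF, ⟨e⟩⟩
  · exact ⟨_, tfact_equiv (e.trans (H24.SzIso.equiv hF hm).symm) (tfact_sz hm hF)⟩
  · exact ⟨_, tfact_equiv e (tfact_psl (one_le_of_simple hF e) hF)⟩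

/-- automorphisms of `Sz(q)` -/
theorem inn_of_sz {F : Type} [Field F] [Fintype F] {m : ℕ} (hm : 1 ≤ m) (hF : Fintype.card F = 2 ^ (2 * m + 1))
    (α : MulAut (Lie.Sz F (2 ^ (m + 1)))) {k : ℕ} (hk : α ^ 2 ^ k = 1) :
    ∃ s : Lie.Sz F (2 ^ (m + 1)), α = MulAut.conj s := by
  have hcard : Nat.card (Cfsg.Out (Lie.Sz F (2 ^ (m + 1)))) = 2 * m + 1 := H40.SzAut.card_out_Lie hF hm
  have h1 : (QuotientGroup.mk' (Cfsg.Inn (Lie.Sz F (2 ^ (m + 1)))) α) ^ (2 * m + 1) = 1 := by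
    rw [← hcard]; exact pow_card_eq_one'
  have h2 : (QuotientGroup.mk' (Cfsg.Inn (Lie.Sz F (2 ^ (m + 1)))) α) ^ 2 ^ k = 1 := by
    rw [← map_pow, hk, map_one]
  have h3 : QuotientGroup.mk' (Cfsg.Inn (Lie.Sz F (2 ^ (m + 1)))) α = 1 := by
    rw [← orderOf_eq_one_iff]
    apply Nat.eq_one_of_dvd_coprimes _ (orderOf_dvd_of_pow_eq_one h1) (orderOf_dvd_of_pow_eq_one h2)
    apply Nat.Coprime.pow_right
    rw [Nat.coprime_two_right]
    exact ⟨m, rfl⟩
  rw [QuotientGroup.mk'_apply, QuotientGroup.eq_one_iff] at h3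
  obtain ⟨s, hs⟩ := h3
  exact ⟨s, hs.symm⟩

/-- automorphisms of `PSL₂(3^(2n+1))` -/
theorem inn_of_psl {F : Type} [Field F] [Fintype F] {n : ℕ} (hF : Fintype.card F = 3 ^ (2 * n + 1))
    (α : MulAut (ProjectiveSpecialLinearGroup (Fin 2) F)) {k : ℕ} (hk : α ^ 2 ^ k = 1) :
    ∃ s : ProjectiveSpecialLinearGroup (Fin 2) F, α = MulAut.conj s ∨
      α * MulAut.conj s = H50.PSLBasic.psi dd (RingEquiv.refl F) := by
  have hf3 : Fact (Nat.Prime 3) := ⟨Nat.prime_three⟩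
  have hFn : Nat.card F = 3 ^ (2 * n + 1) := by rw [Nat.card_eq_fintype_card, hF]
  have hchar : CharP F 3 := H50.FieldAut.charP_of_card 3 hFn
  obtain ⟨Φ, hΦ1, -⟩ := H50.PSLOut.exists_fieldPart (F := F) 3 (n := 2) (by omega)
  obtain ⟨g, σ, h | ⟨h, -⟩⟩ := H50.AutPSL2.aut_psl (p := 3) (le_refl 2) α
  swap
  · omega
  -- the field part is trivial
  have hσ : σ = RingEquiv.refl F := by
    have h1 : σ ^ 2 ^ k = 1 := by
      have h2 : Φ α = σ := by rw [h, hΦ1]
      rw [← h2, ← map_pow, hk, map_one]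
    have h2 : σ ^ (2 * n + 1) = 1 := by
      rw [← H50.FieldAut.card_ringAut 3 hFn]
      exact pow_card_eq_one'
    change σ = 1
    rw [← orderOf_eq_one_iff]
    apply Nat.eq_one_of_dvd_coprimes _ (orderOf_dvd_of_pow_eq_one h2) (orderOf_dvd_of_pow_eq_one h1)
    apply Nat.Coprime.pow_right
    rw [Nat.coprime_two_right]
    exact ⟨n, rfl⟩
  rw [hσ] at h
  have h1 : (QuotientGroup.mk α : Cfsg.Out (ProjectiveSpecialLinearGroup (Fin 2) F)) ∈
      (H50.PSLOut.diagOut (F := F) (0 : Fin 2)).range := by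
    rw [H50.PSLOut.diagOut_range le_rfl]
    exact ⟨g, by rw [h]⟩
  obtain ⟨u, hu⟩ := h1
  have hd : (QuotientGroup.mk (H50.PSLBasic.psi (dd : GL (Fin 2) F) (RingEquiv.refl F)) :
      Cfsg.Out (ProjectiveSpecialLinearGroup (Fin 2) F)) = H50.PSLOut.diagOut (F := F) (0 : Fin 2) (-1) := by
    have h2 : (dd : GL (Fin 2) F) = H50.PSLOut.diagU (0 : Fin 2) (-1 : Fˣ) := by
      apply Units.ext
      rw [H50.PSLOut.diagU_coe]
      ext i j
      fin_cases i <;> fin_cases j <;> simp [dd]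
    rw [h2]
    rfl
  have hsq : ∀ v : Fˣ, v ∈ (powMonoidHom 2 : Fˣ →* Fˣ).range → H50.PSLOut.diagOut (F := F) (0 : Fin 2) v = 1 := by
    intro v hv
    rw [← H50.PSLOut.diagOut_ker le_rfl (0 : Fin 2)] at hv
    exact hv
  rcases units_sq hF u with h2 | h2
  · have h3 : (QuotientGroup.mk α : Cfsg.Out (ProjectiveSpecialLinearGroup (Fin 2) F)) = 1 := by
      rw [← hu]; exact hsq u h2
    rw [QuotientGroup.eq_one_iff] at h3
    obtain ⟨s, hs⟩ := h3
    exact ⟨s, Or.inl hs.symm⟩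
  · have h3 : (QuotientGroup.mk α : Cfsg.Out (ProjectiveSpecialLinearGroup (Fin 2) F)) =
        QuotientGroup.mk (H50.PSLBasic.psi (dd : GL (Fin 2) F) (RingEquiv.refl F)) := by
      rw [hd, ← hu]
      have h4 : u = -1 * -u := by rw [neg_mul_neg, one_mul]
      rw [h4, map_mul, hsq _ h2, mul_one]
    rw [QuotientGroup.eq] at h3
    obtain ⟨s, hs⟩ := h3
    refine ⟨s, Or.inr ?_⟩
    rw [hs, mul_inv_cancel_left]

/-- **Module A2** -/
theorem inner {G : Type u} [Group G] [Finite G] (h4 : ¬ Involves (Equiv.Perm (Fin 4)) G) (T : Subgroup G)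
    [IsSimpleGroup T] (hT : IsSuzukiOrPSL2OddPowerThree T) (a : G) (ha : a ∈ normalizer (T : Set G))
    (h2 : ∃ k, orderOf a = 2 ^ k) : ∃ t ∈ T, ∀ x ∈ T, a * x * a⁻¹ = t * x * t⁻¹ := by
  obtain ⟨k, hk⟩ := h2
  set α := T.normalizerMonoidHom ⟨a, ha⟩ with hα
  have hαx : ∀ x : T, ((α x : T) : G) = a * x * a⁻¹ := fun x => rfl
  have hαk : α ^ 2 ^ k = 1 := by
    rw [hα, ← map_pow]
    have h1 : (⟨a, ha⟩ : normalizer (T : Set G)) ^ 2 ^ k = 1 := by
      apply Subtype.ext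
      rw [SubgroupClass.coe_pow, Subgroup.coe_one]
      change a ^ 2 ^ k = 1
      rw [← hk, pow_orderOf_eq_one]
    rw [h1, map_one]
  rcases hT with ⟨F, _, _, m, hm, hF, ⟨e⟩⟩ | ⟨F, _, _, n, hF, ⟨e⟩⟩
  · set β : MulAut (Lie.Sz F (2 ^ (m + 1))) := MulAut.congr e α with hβ
    have hβk : β ^ 2 ^ k = 1 := by rw [hβ, ← map_pow, hαk, map_one]
    obtain ⟨s, hs⟩ := inn_of_sz hm hF β hβk
    refine ⟨(e.symm s : T), (e.symm s).2, fun x hx => ?_⟩
    rw [← hαx ⟨x, hx⟩]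
    have h1 : α ⟨x, hx⟩ = e.symm (β (e ⟨x, hx⟩)) := by
      rw [hβ]
      change _ = e.symm (e (α (e.symm (e ⟨x, hx⟩))))
      rw [e.symm_apply_apply, e.symm_apply_apply]
    rw [h1, hs, MulAut.conj_apply, map_mul, map_mul, map_inv, e.symm_apply_apply]
    rfl
  · set β : MulAut (ProjectiveSpecialLinearGroup (Fin 2) F) := MulAut.congr e α with hβ
    have hβk : β ^ 2 ^ k = 1 := by rw [hβ, ← map_pow, hαk, map_one]
    have h1 : ∀ x : T, α x = e.symm (β (e x)) := by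
      intro x
      rw [hβ]
      change _ = e.symm (e (α (e.symm (e x))))
      rw [e.symm_apply_apply, e.symm_apply_apply]
    obtain ⟨s, hs | hs⟩ := inn_of_psl hF β hβk
    · refine ⟨(e.symm s : T), (e.symm s).2, fun x hx => ?_⟩
      rw [← hαx ⟨x, hx⟩, h1, hs, MulAut.conj_apply, map_mul, map_mul, map_inv, e.symm_apply_apply]
      rfl
    · exfalso
      apply h4
      refine involves_of_dd hF T e (a * (e.symm s : T)) (fun x => ?_)
      rw [← hs]
      have h3 : a * (e.symm s : T) * (x : G) * (a * (e.symm s : T))⁻¹ = ((α (e.symm s * x * (e.symm s)⁻¹) : T) : G) := by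
        rw [hαx]
        rw [Subgroup.coe_mul, Subgroup.coe_mul, Subgroup.coe_inv]
        group
      rw [h3, h1]
      congr 2
      rw [MulAut.mul_apply, MulAut.conj_apply]
      congr 1
      rw [map_mul, map_mul, map_inv, e.apply_symm_apply]

/-- `S₄` is involved in a group in which `S₃`... an `S₃`-free group is `S₄`-free -/
theorem inner' {G : Type u} [Group G] [Finite G] (h4 : ¬ Involves (Equiv.Perm (Fin 4)) G) (T : Subgroup G)
    [IsSimpleGroup T] (hT : IsSuzukiOrPSL2OddPowerThree T) (a : G) (ha : a ∈ normalizer (T : Set G))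
    (h2 : a * a = 1) : ∃ t ∈ T, ∀ x ∈ T, a * x * a⁻¹ = t * x * t⁻¹ := by
  apply inner h4 T hT a ha
  have h1 := orderOf_dvd_of_pow_eq_one (show a ^ 2 = 1 by rw [sq, h2])
  rcases (Nat.dvd_prime Nat.prime_two).1 h1 with h | h
  · exact ⟨0, by rw [h, pow_zero]⟩
  · exact ⟨1, by rw [h, pow_one]⟩

end H8.TF
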