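import Cfsg.Agent.Lib.H8.TF4
import Cfsg.Agent.Lib.H51.Involves

/-! An `S₃`-free group is `S₄`-free. -/

set_option autoImplicit false

universe u

namespace H8.TF

open Cfsg Subgroup

theorem not_S4_of_not_S3 {G : Type u} [Group G] (h : ¬ Involves (Equiv.Perm (Fin 3)) G) :
    ¬ Involves (Equiv.Perm (Fin 4)) G := by
  intro h4
  apply h
  have h1 : Involves (Equiv.Perm (Fin 3)) (Equiv.Perm (Fin 4)) :=
    H51.Involves.involves_of_injective (Equiv.Perm.viaEmbeddingHom (Fin.castSuccEmb : Fin 3 ↪ Fin 4))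
      (Equiv.Perm.viaEmbeddingHom_injective _) (H51.Involves.involves_refl _)
  exact H51.Involves.involves_trans h1 h4

end H8.TF
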