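import Mathlib

/-! Diagonal copies of a simple subgroup under an elementary abelian 2-group permuting its conjugates. -/

set_option autoImplicit false

universe u

namespace H8.TH

open Subgroup

variable {E : Type u} [Group E]

theorem center_trivial {T : Subgroup E} [IsSimpleGroup T] (hnc : ¬ (∀ a ∈ T, ∀ b ∈ T, a * b = b * a))
    {z : E} (hz : z ∈ T) (h : ∀ x ∈ T, z * x = x * z) : z = 1 := by
  rcases (inferInstance : (center T).Normal).eq_bot_or_eq_top with h1 | h1
  · have h2 : (⟨z, hz⟩ : T) ∈ center T := by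
      rw [mem_center_iff]
      intro g
      exact Subtype.ext (h g.1 g.2).symm
    rw [h1, mem_bot] at h2
    exact congrArg Subtype.val h2
  · exfalso
    apply hnc
    intro a ha b hb
    have h2 : (⟨b, hb⟩ : T) ∈ center T := by rw [h1]; trivial
    exact congrArg Subtype.val (mem_center_iff.1 h2 ⟨a, ha⟩)

/-- distinct conjugates commute -/
theorem comm_of_not [Finite E] {T P A : Subgroup E} [IsSimpleGroup T]
    (TP : T ≤ P) (PT : P ≤ normalizer (T : Set E)) (AP : A ≤ normalizer (P : Set E)) {a : E} (ha : a ∈ A)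
    (haT : a ∉ normalizer (T : Set E)) : ∀ x ∈ T, ∀ y ∈ T, x * (a * y * a⁻¹) = (a * y * a⁻¹) * x := by
  set T' : Subgroup E := T.map (MulAut.conj a).toMonoidHom with hT'
  have hmem : ∀ y, y ∈ T' ↔ a⁻¹ * y * a ∈ T := by
    intro y
    constructor
    · rintro ⟨z, hz, rfl⟩
      change a⁻¹ * (a * z * a⁻¹) * a ∈ T
      have : a⁻¹ * (a * z * a⁻¹) * a = z := by group
      rw [this]; exact hz
    · intro h
      refine ⟨a⁻¹ * y * a, h, ?_⟩
      change a * (a⁻¹ * y * a) * a⁻¹ = y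
      group
  have hPT' : ∀ p ∈ P, ∀ y ∈ T', p * y * p⁻¹ ∈ T' := by
    intro p hp y hy
    rw [hmem] at hy ⊢
    have hp' : a⁻¹ * p * a ∈ P := by
      have := (mem_normalizer_iff.1 (inv_mem (AP ha)) p).1 hp
      rwa [inv_inv] at this
    have h1 := (mem_normalizer_iff.1 (PT hp') _).1 hy
    have : a⁻¹ * (p * y * p⁻¹) * a = a⁻¹ * p * a * (a⁻¹ * y * a) * (a⁻¹ * p * a)⁻¹ := by group
    rw [this]; exact h1
  have hn : ((T ⊓ T').subgroupOf T).Normal := by
    constructor
    intro n hn g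
    rw [mem_subgroupOf] at hn ⊢
    refine ⟨(g * n * g⁻¹).2, ?_⟩
    exact hPT' _ (TP g.2) _ hn.2
  intro x hx y hy
  rcases hn.eq_bot_or_eq_top with h | h
  · have hy' : a * y * a⁻¹ ∈ T' := ⟨y, hy, rfl⟩
    have h1 : x * (a * y * a⁻¹) * x⁻¹ * (a * y * a⁻¹)⁻¹ ∈ T := by
      have h2 : (a * y * a⁻¹) * x⁻¹ * (a * y * a⁻¹)⁻¹ ∈ T := by
        have hyP : a * y * a⁻¹ ∈ P := (mem_normalizer_iff.1 (AP ha) y).1 (TP hy)
        exact (mem_normalizer_iff.1 (PT hyP) _).1 (inv_mem hx)
      have h3 : x * (a * y * a⁻¹) * x⁻¹ * (a * y * a⁻¹)⁻¹ = x * ((a * y * a⁻¹) * x⁻¹ * (a * y * a⁻¹)⁻¹) := by group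
      rw [h3]; exact mul_mem hx h2
    have h2 : x * (a * y * a⁻¹) * x⁻¹ * (a * y * a⁻¹)⁻¹ ∈ T' :=
      mul_mem (hPT' _ (TP hx) _ hy') (inv_mem hy')
    have h3 : (⟨_, h1⟩ : T) ∈ (T ⊓ T').subgroupOf T := by
      rw [mem_subgroupOf]; exact ⟨h1, h2⟩
    rw [h, mem_bot] at h3
    have h4 : x * (a * y * a⁻¹) * x⁻¹ * (a * y * a⁻¹)⁻¹ = 1 := congrArg Subtype.val h3
    have h5 := mul_inv_eq_one.1 h4
    exact mul_inv_eq_iff_eq_mul.1 h5
  · exfalso
    apply haT
    have h1 : T ≤ T' := by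
      intro z hz
      have : (⟨z, hz⟩ : T) ∈ (T ⊓ T').subgroupOf T := by rw [h]; trivial
      exact (mem_subgroupOf.1 this).2
    have hcard : Nat.card T' = Nat.card T :=
      (Nat.card_congr (T.equivMapOfInjective (MulAut.conj a).toMonoidHom (MulAut.conj a).injective).toEquiv).symm
    have h2 : T = T' := Subgroup.eq_of_le_of_card_ge h1 hcard.le
    rw [mem_normalizer_iff]
    intro z
    constructor
    · intro hz
      rw [h2]
      exact ⟨z, hz, rfl⟩
    · intro hz
      rw [h2, hmem] at hz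
      have : a⁻¹ * (a * z * a⁻¹) * a = z := by group
      rwa [this] at hz

/-- hyperplanes containing a given proper subgroup -/
theorem hyper [Finite E] {A B : Subgroup E} (hAc : ∀ a ∈ A, ∀ b ∈ A, a * b = b * a) (hAs : ∀ a ∈ A, a * a = 1)
    (hB : B < A) : ∃ D, B ≤ D ∧ D ≤ A ∧ (∃ a ∈ A, a ∉ D) ∧ ∀ a ∈ A, a ∉ D → ∀ b ∈ A, b ∉ D → a * b ∈ D := by
  obtain ⟨D, hD⟩ := (Set.toFinite {D : Subgroup E | B ≤ D ∧ D < A}).exists_maximal ⟨B, le_rfl, hB⟩
  have hDA : D < A := hD.1.2
  refine ⟨D, hD.1.1, hDA.le, ?_, ?_⟩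
  · obtain ⟨a, ha, haD⟩ := SetLike.exists_of_lt hDA
    exact ⟨a, ha, haD⟩
  · intro a ha haD b hb hbD
    by_contra hab
    -- the subgroup `D ∪ a D`
    let D' : Subgroup E :=
      { carrier := {x | x ∈ A ∧ (x ∈ D ∨ a * x ∈ D)}
        one_mem' := ⟨one_mem _, Or.inl (one_mem _)⟩
        mul_mem' := by
          rintro x y ⟨hx, hx'⟩ ⟨hy, hy'⟩
          refine ⟨mul_mem hx hy, ?_⟩
          rcases hx' with hx' | hx' <;> rcases hy' with hy' | hy'
          · exact Or.inl (mul_mem hx' hy')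
          · right
            have : a * (x * y) = x * (a * y) := by
              rw [← mul_assoc, hAc a ha x hx, mul_assoc]
            rw [this]; exact mul_mem hx' hy'
          · right
            rw [← mul_assoc]; exact mul_mem hx' hy'
          · left
            have : x * y = (a * x) * (a * y) := by
              rw [hAc a ha x hx, mul_assoc x a (a * y), ← mul_assoc a a y, hAs a ha, one_mul]
            rw [this]; exact mul_mem hx' hy'
        inv_mem' := by
          rintro x ⟨hx, hx'⟩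
          have hxi : x⁻¹ = x := inv_eq_of_mul_eq_one_left (hAs x hx)
          rw [hxi]; exact ⟨hx, hx'⟩ }
    have h1 : D ≤ D' := fun x hx => ⟨hDA.le hx, Or.inl hx⟩
    have h2 : D' < A := by
      refine lt_of_le_of_ne (fun x hx => hx.1) ?_
      intro h
      have h3 : b ∈ D' := by rw [h]; exact hb
      rcases h3.2 with h4 | h4
      · exact hbD h4
      · exact hab h4
    have h3 : D' ≤ D := hD.2 ⟨hD.1.1.trans h1, h2⟩ h1
    exact haD (h3 ⟨ha, Or.inr (by rw [hAs a ha]; exact one_mem _)⟩)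

/-- the span of the conjugates -/
def VV (T D : Subgroup E) : Subgroup E := closure {x | ∃ d ∈ D, ∃ t ∈ T, x = d * t * d⁻¹}

theorem VV_mono {T D D' : Subgroup E} (h : D ≤ D') : VV T D ≤ VV T D' := by
  apply Subgroup.closure_mono
  rintro _ ⟨d, hd, t, ht, rfl⟩
  exact ⟨d, h hd, t, ht, rfl⟩

theorem le_VV (T D : Subgroup E) : T ≤ VV T D := by
  intro t ht
  exact Subgroup.subset_closure ⟨1, one_mem _, t, ht, by group⟩

theorem VV_le {T P A D : Subgroup E} (TP : T ≤ P) (AP : A ≤ normalizer (P : Set E)) (hDA : D ≤ A) : VV T D ≤ P := by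
  unfold VV
  rw [closure_le]
  rintro _ ⟨d, hd, t, ht, rfl⟩
  exact (mem_normalizer_iff.1 (AP (hDA hd)) t).1 (TP ht)

theorem conj_VV {T A D : Subgroup E} (hAc : ∀ a ∈ A, ∀ b ∈ A, a * b = b * a) (hDA : D ≤ A) {d : E} (hd : d ∈ D) {x : E}
    (hx : x ∈ VV T D) : d * x * d⁻¹ ∈ VV T D := by
  unfold VV at hx ⊢
  induction hx using closure_induction with
  | mem x hx =>
    obtain ⟨e, he, t, ht, rfl⟩ := hx
    apply Subgroup.subset_closure
    exact ⟨d * e, mul_mem hd he, t, ht, by group⟩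
  | one => rw [mul_one, mul_inv_cancel]; exact one_mem _
  | mul x y _ _ hx hy =>
    have : d * (x * y) * d⁻¹ = (d * x * d⁻¹) * (d * y * d⁻¹) := by group
    rw [this]; exact mul_mem hx hy
  | inv x _ hx =>
    have : d * x⁻¹ * d⁻¹ = (d * x * d⁻¹)⁻¹ := by group
    rw [this]; exact inv_mem hx

/-- spans of disjoint sets of conjugates commute -/
theorem VV_comm [Finite E] {T P A D : Subgroup E} [IsSimpleGroup T]
    (TP : T ≤ P) (PT : P ≤ normalizer (T : Set E)) (AP : A ≤ normalizer (P : Set E))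
    (hAc : ∀ a ∈ A, ∀ b ∈ A, a * b = b * a) (hAs : ∀ a ∈ A, a * a = 1) (hDA : D ≤ A) {a : E} (ha : a ∈ A)
    (hno : ∀ d ∈ D, d * a ∉ normalizer (T : Set E)) : ∀ x ∈ VV T D, ∀ y ∈ VV T D, x * (a * y * a⁻¹) = (a * y * a⁻¹) * x := by
  intro x hx y hy
  unfold VV at hx hy
  induction hx using closure_induction with
  | mem x hx =>
    obtain ⟨d, hd, t, ht, rfl⟩ := hx
    induction hy using closure_induction with
    | mem y hy =>
      obtain ⟨e, he, s, hs, rfl⟩ := hy
      have h1 := comm_of_not TP PT AP (mul_mem (hDA (mul_mem (inv_mem hd) he)) ha) (hno _ (mul_mem (inv_mem hd) he)) t ht s hs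
      have hda : d * a = a * d := hAc d (hDA hd) a ha
      have hea : e * a = a * e := hAc e (hDA he) a ha
      have h2 : a * (e * s * e⁻¹) * a⁻¹ = d * (d⁻¹ * e * a * s * (d⁻¹ * e * a)⁻¹) * d⁻¹ := by
        calc a * (e * s * e⁻¹) * a⁻¹ = (a * e) * s * (a * e)⁻¹ := by group
          _ = (e * a) * s * (e * a)⁻¹ := by rw [hea]
          _ = _ := by group
      rw [h2]
      calc d * t * d⁻¹ * (d * (d⁻¹ * e * a * s * (d⁻¹ * e * a)⁻¹) * d⁻¹)
          = d * (t * (d⁻¹ * e * a * s * (d⁻¹ * e * a)⁻¹)) * d⁻¹ := by group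
        _ = d * ((d⁻¹ * e * a * s * (d⁻¹ * e * a)⁻¹) * t) * d⁻¹ := by rw [h1]
        _ = _ := by group
    | one => group
    | mul y z _ _ hy hz =>
      have : a * (y * z) * a⁻¹ = (a * y * a⁻¹) * (a * z * a⁻¹) := by group
      rw [this]
      exact (Commute.mul_right hy hz : Commute (d * t * d⁻¹) (a * y * a⁻¹ * (a * z * a⁻¹)))
    | inv y _ hy =>
      have : a * y⁻¹ * a⁻¹ = (a * y * a⁻¹)⁻¹ := by group
      rw [this]
      exact (Commute.inv_right hy : Commute (d * t * d⁻¹) (a * y * a⁻¹)⁻¹)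
  | one => rw [one_mul, mul_one]
  | mul x z _ _ hx hz => rw [mul_assoc, hz, ← mul_assoc, hx, mul_assoc]
  | inv x _ hx => exact (Commute.inv_left hx : Commute x⁻¹ (a * y * a⁻¹))

/-- the diagonal copy -/
theorem exists_th [Finite E] {T P A : Subgroup E} [IsSimpleGroup T]
    (TP : T ≤ P) (PT : P ≤ normalizer (T : Set E)) (AP : A ≤ normalizer (P : Set E))
    (hAc : ∀ a ∈ A, ∀ b ∈ A, a * b = b * a) (hAs : ∀ a ∈ A, a * a = 1) :
    ∀ (n : ℕ) (D : Subgroup E), Nat.card D = n → D ≤ A →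
      (∀ d ∈ D, d ∈ normalizer (T : Set E) → d ∈ centralizer (T : Set E)) →
      ∃ th : T →* E, (∀ t, th t ∈ VV T D) ∧ (∀ t : T, ∃ c ∈ P, c ∈ centralizer (T : Set E) ∧ th t = t * c) ∧
        (∀ d ∈ D, ∀ t, d * th t = th t * d) ∧
        (∀ a ∈ A, ∀ (haT : a ∈ normalizer (T : Set E)) (t : T),
          a * th t * a⁻¹ = th ⟨a * t * a⁻¹, (mem_normalizer_iff.1 haT _).1 t.2⟩) := by
  intro n
  induction n using Nat.strong_induction_on with
  | _ n ih =>
  intro D hn hDA hDC
  by_cases hall : ∀ d ∈ D, d ∈ normalizer (T : Set E)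
  · refine ⟨T.subtype, fun t => le_VV T D t.2, fun t => ⟨1, one_mem _, one_mem _, by rw [mul_one]; rfl⟩, ?_, ?_⟩
    · intro d hd t
      exact (mem_centralizer_iff.1 (hDC d hd (hall d hd)) t t.2).symm
    · intro a ha haT t
      rfl
  · have hlt : D ⊓ normalizer (T : Set E) < D := by
      refine lt_of_le_of_ne inf_le_left ?_
      intro h
      apply hall
      intro d hd
      rw [← h] at hd
      exact hd.2
    obtain ⟨D₁, hBD, hD₁D, ⟨d, hd, hdD₁⟩, hD₁⟩ := hyper (fun a ha b hb => hAc a (hDA ha) b (hDA hb))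
      (fun a ha => hAs a (hDA ha)) hlt
    have hlt1 : Nat.card D₁ < n := by
      rw [← hn]
      have h1 : D₁ < D := lt_of_le_of_ne hD₁D (by rintro rfl; exact hdD₁ hd)
      by_contra hcon
      push Not at hcon
      exact h1.ne (Subgroup.eq_of_le_of_card_ge h1.le hcon)
    obtain ⟨th, hth1, hth2, hth3, hth4⟩ := ih _ hlt1 D₁ rfl (hD₁D.trans hDA) (fun e he => hDC e (hD₁D he))
    have hdA := hDA hd
    have hno : ∀ e ∈ D₁, e * d ∉ normalizer (T : Set E) := by
      intro e he hed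
      apply hdD₁
      have h1 : e * d ∈ D₁ := hBD ⟨mul_mem (hD₁D he) hd, hed⟩
      have h2 : d = e⁻¹ * (e * d) := by group
      rw [h2]; exact mul_mem (inv_mem he) h1
    have hcomm := VV_comm TP PT AP hAc hAs (hD₁D.trans hDA) hdA hno
    have hdd : d * d = 1 := hAs d hdA
    have hdi : d⁻¹ = d := inv_eq_of_mul_eq_one_left hdd
    refine ⟨MonoidHom.mk' (fun t => th t * (d * th t * d⁻¹)) ?_, ?_, ?_, ?_, ?_⟩
    · intro s t
      have h1 := hcomm (th t) (hth1 t) (th s) (hth1 s)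
      calc th (s * t) * (d * th (s * t) * d⁻¹) = th s * (th t * (d * th s * d⁻¹)) * (d * th t * d⁻¹) := by
            rw [map_mul]; group
        _ = th s * ((d * th s * d⁻¹) * th t) * (d * th t * d⁻¹) := by rw [h1]
        _ = _ := by group
    · intro t
      change th t * (d * th t * d⁻¹) ∈ VV T D
      exact mul_mem (VV_mono hD₁D (hth1 t)) (conj_VV hAc hDA hd (VV_mono hD₁D (hth1 t)))
    · intro t
      obtain ⟨c, hcP, hcT, hc⟩ := hth2 t
      refine ⟨c * (d * th t * d⁻¹), mul_mem hcP ?_, mul_mem hcT ?_, ?_⟩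
      · exact (mem_normalizer_iff.1 (AP hdA) _).1 (VV_le TP AP (hD₁D.trans hDA) (hth1 t))
      · rw [mem_centralizer_iff]
        intro x hx
        exact hcomm x (le_VV T D₁ hx) (th t) (hth1 t)
      · change th t * (d * th t * d⁻¹) = _
        rw [← mul_assoc (t : E) c, ← hc]
    · intro e he t
      change e * (th t * (d * th t * d⁻¹)) = th t * (d * th t * d⁻¹) * e
      have key1 : ∀ e ∈ D₁, e * (th t * (d * th t * d⁻¹)) = th t * (d * th t * d⁻¹) * e := by
        intro e he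
        have h1 := hth3 e he t
        have h2 : e * d = d * e := hAc e (hDA (hD₁D he)) d hdA
        have h3 : d⁻¹ * e = e * d⁻¹ := by rw [hdi]; exact h2.symm
        calc e * (th t * (d * th t * d⁻¹)) = (e * th t) * d * th t * d⁻¹ := by group
          _ = th t * (e * d) * th t * d⁻¹ := by rw [h1]; group
          _ = th t * d * (e * th t) * d⁻¹ := by rw [h2]; group
          _ = th t * d * th t * (e * d⁻¹) := by rw [h1]; group
          _ = _ := by rw [← h3]; group
      have key2 : d * (th t * (d * th t * d⁻¹)) = th t * (d * th t * d⁻¹) * d := by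
        have h1 := hcomm (th t) (hth1 t) (th t) (hth1 t)
        rw [h1]
        calc d * (d * th t * d⁻¹ * th t) = (d * d) * th t * d⁻¹ * th t := by group
          _ = th t * d⁻¹ * th t := by rw [hdd, one_mul]
          _ = th t * d * th t := by rw [hdi]
          _ = th t * d * th t * d⁻¹ * d := by group
          _ = (th t * (d * th t * d⁻¹)) * d := by group
          _ = _ := by rw [h1]
      by_cases heD : e ∈ D₁
      · exact key1 e heD
      · have h1 : e * d ∈ D₁ := hD₁ e he heD d hd hdD₁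
        have h2 := key1 _ h1
        have h3 : e = (e * d) * d := by rw [mul_assoc, hdd, mul_one]
        calc e * (th t * (d * th t * d⁻¹)) = (e * d) * (d * (th t * (d * th t * d⁻¹))) := by
              conv_lhs => rw [h3]
              group
          _ = (e * d) * (th t * (d * th t * d⁻¹)) * d := by rw [key2]; group
          _ = th t * (d * th t * d⁻¹) * (e * d) * d := by rw [h2]
          _ = _ := by rw [mul_assoc _ (e * d) d, ← h3]
    · intro a ha haT t
      change a * (th t * (d * th t * d⁻¹)) * a⁻¹ = th _ * (d * th _ * d⁻¹)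
      rw [← hth4 a ha haT t]
      have h1 : d * a = a * d := hAc d hdA a ha
      have h2 : a⁻¹ * d⁻¹ = d⁻¹ * a⁻¹ := by rw [← mul_inv_rev, ← mul_inv_rev, h1]
      calc a * (th t * (d * th t * d⁻¹)) * a⁻¹ = a * th t * a⁻¹ * (a * d) * th t * (d⁻¹ * a⁻¹) := by group
        _ = a * th t * a⁻¹ * (d * a) * th t * (a⁻¹ * d⁻¹) := by rw [h1, h2]
        _ = _ := by group

theorem theta [Finite E] (T P A : Subgroup E) [IsSimpleGroup T]
    (hnc : ¬ (∀ a ∈ T, ∀ b ∈ T, a * b = b * a))
    (TP : T ≤ P) (PT : P ≤ normalizer (T : Set E)) (AP : A ≤ normalizer (P : Set E))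
    (hAc : ∀ a ∈ A, ∀ b ∈ A, a * b = b * a) (hAs : ∀ a ∈ A, a * a = 1)
    (hinn : ∀ a ∈ A, a ∈ normalizer (T : Set E) → ∃ t ∈ T, ∀ x ∈ T, a * x * a⁻¹ = t * x * t⁻¹)
    (hnot : ¬ A ≤ centralizer (T : Set E)) :
    (∃ D ≤ A, (∃ a ∈ A, a ∉ D) ∧ (∀ a ∈ A, a ∉ D → ∀ b ∈ A, b ∉ D → a * b ∈ D) ∧
      ∀ k ∈ T, ∃ x0 ∈ P, ∃ c ∈ P, c ∈ centralizer (T : Set E) ∧ x0 = k * c ∧ orderOf x0 ∣ orderOf k ∧
        (∀ d ∈ D, d * x0 = x0 * d) ∧ ∀ a ∈ A, a ∉ D → a * x0 * a⁻¹ = x0⁻¹) ∨
    (∃ (tau : A →* T) (th : T →* E), (∃ a, tau a ≠ 1) ∧ (∀ t, th t ∈ P) ∧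
      (∀ t : T, ∃ c ∈ P, c ∈ centralizer (T : Set E) ∧ th t = t * c) ∧
      ∀ (a : A) (t : T), (a : E) * th t * (a : E)⁻¹ = th (tau a * t * (tau a)⁻¹)) := by
  by_cases hAT : ∀ a ∈ A, a ∈ normalizer (T : Set E) → a ∈ centralizer (T : Set E)
  · left
    have hlt : A ⊓ normalizer (T : Set E) < A := by
      refine lt_of_le_of_ne inf_le_left ?_
      intro h
      apply hnot
      intro a ha
      apply hAT a ha
      rw [← h] at ha
      exact ha.2
    obtain ⟨D, hBD, hDA, ⟨a, ha, haD⟩, hD⟩ := hyper hAc hAs hlt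
    refine ⟨D, hDA, ⟨a, ha, haD⟩, hD, ?_⟩
    obtain ⟨th, hth1, hth2, hth3, -⟩ := exists_th TP PT AP hAc hAs _ D rfl hDA (fun d hd => hAT d (hDA hd))
    have hno : ∀ e ∈ D, e * a ∉ normalizer (T : Set E) := by
      intro e he hed
      apply haD
      have h1 : e * a ∈ D := hBD ⟨mul_mem (hDA he) ha, hed⟩
      have h2 : a = e⁻¹ * (e * a) := by group
      rw [h2]; exact mul_mem (inv_mem he) h1
    have hcomm := VV_comm TP PT AP hAc hAs hDA ha hno
    have haa : a * a = 1 := hAs a ha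
    have hai : a⁻¹ = a := inv_eq_of_mul_eq_one_left haa
    intro k hk
    obtain ⟨u, hu⟩ : ∃ u, u = th ⟨k, hk⟩ := ⟨_, rfl⟩
    have huV : u ∈ VV T D := by rw [hu]; exact hth1 _
    have huP : u ∈ P := VV_le TP AP hDA huV
    obtain ⟨v, hv⟩ : ∃ v, v = a * u⁻¹ * a⁻¹ := ⟨_, rfl⟩
    have huv : u * v = v * u := by rw [hv]; exact hcomm u huV u⁻¹ (inv_mem huV)
    obtain ⟨c, hcP, hcT, hc⟩ := hth2 ⟨k, hk⟩
    have hvP : v ∈ P := by rw [hv]; exact (mem_normalizer_iff.1 (AP ha) _).1 (inv_mem huP)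
    have hvT : v ∈ centralizer (T : Set E) := by
      rw [mem_centralizer_iff, hv]
      intro x hx
      exact hcomm x (le_VV T D hx) u⁻¹ (inv_mem huV)
    have hdx : ∀ d ∈ D, d * (u * v) = u * v * d := by
      intro d hd
      have h1 : d * u = u * d := by rw [hu]; exact hth3 d hd _
      have h1' : d * u⁻¹ = u⁻¹ * d := (Commute.inv_right h1 : Commute d u⁻¹)
      have h2 : d * a = a * d := hAc d (hDA hd) a ha
      have h3 : d * a⁻¹ = a⁻¹ * d := by rw [hai]; exact h2
      have h4 : d * v = v * d := by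
        rw [hv]
        calc d * (a * u⁻¹ * a⁻¹) = (d * a) * u⁻¹ * a⁻¹ := by group
          _ = a * (d * u⁻¹) * a⁻¹ := by rw [h2]; group
          _ = a * u⁻¹ * (d * a⁻¹) := by rw [h1']; group
          _ = _ := by rw [h3]; group
      rw [← mul_assoc, h1, mul_assoc, h4, mul_assoc]
    have hax : a * (u * v) * a⁻¹ = (u * v)⁻¹ := by
      have h1 : a * v * a⁻¹ = u⁻¹ := by
        rw [hv]
        calc a * (a * u⁻¹ * a⁻¹) * a⁻¹ = (a * a) * u⁻¹ * (a * a)⁻¹ := by group
          _ = _ := by rw [haa]; group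
      have h2 : a * u * a⁻¹ = v⁻¹ := by rw [hv]; group
      calc a * (u * v) * a⁻¹ = (a * u * a⁻¹) * (a * v * a⁻¹) := by group
        _ = _ := by rw [h1, h2, mul_inv_rev]
    refine ⟨u * v, mul_mem huP hvP, c * v, mul_mem hcP hvP, mul_mem hcT hvT, ?_, ?_, hdx, ?_⟩
    · rw [← mul_assoc, hu, hc]
    · apply orderOf_dvd_of_pow_eq_one
      have h1 : u ^ orderOf k = 1 := by
        rw [hu, ← map_pow]
        have : (⟨k, hk⟩ : T) ^ orderOf k = 1 := by
          apply Subtype.ext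
          rw [SubgroupClass.coe_pow]
          exact pow_orderOf_eq_one k
        rw [this, map_one]
      have h2 : v ^ orderOf k = 1 := by
        rw [hv]
        have h3 : (a * u⁻¹ * a⁻¹) ^ orderOf k = a * (u⁻¹) ^ orderOf k * a⁻¹ := conj_pow
        rw [h3, inv_pow, h1]; group
      rw [Commute.mul_pow huv, h1, h2, one_mul]
    · intro b hb hbD
      have h1 : b * a ∈ D := hD b hb hbD a ha haD
      have h2 := hdx _ h1
      have h3 : b = (b * a) * a := by rw [mul_assoc, haa, mul_one]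
      calc b * (u * v) * b⁻¹ = (b * a) * (a * (u * v) * a⁻¹) * (b * a)⁻¹ := by
            conv_lhs => rw [h3]
            group
        _ = (b * a) * (u * v)⁻¹ * (b * a)⁻¹ := by rw [hax]
        _ = ((b * a) * (u * v) * (b * a)⁻¹)⁻¹ := by group
        _ = _ := by rw [h2]; group
  · right
    push Not at hAT
    obtain ⟨b₀, hb₀A, hb₀T, hb₀C⟩ := hAT
    -- a complement
    obtain ⟨D, hDmax⟩ := (Set.toFinite {D : Subgroup E | D ≤ A ∧
      ∀ d ∈ D, d ∈ normalizer (T : Set E) → d ∈ centralizer (T : Set E)}).exists_maximal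
      ⟨⊥, bot_le, by intro d hd _; rw [mem_bot] at hd; rw [hd]; exact one_mem _⟩
    obtain ⟨hDA, hDC⟩ := hDmax.1
    have hcover : ∀ a ∈ A, ∃ b ∈ A, b ∈ normalizer (T : Set E) ∧ ∃ d ∈ D, a = b * d := by
      intro a ha
      by_contra hcon
      push Not at hcon
      let D' : Subgroup E :=
        { carrier := {x | x ∈ A ∧ (x ∈ D ∨ a * x ∈ D)}
          one_mem' := ⟨one_mem _, Or.inl (one_mem _)⟩
          mul_mem' := by
            rintro x y ⟨hx, hx'⟩ ⟨hy, hy'⟩
            refine ⟨mul_mem hx hy, ?_⟩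
            rcases hx' with hx' | hx' <;> rcases hy' with hy' | hy'
            · exact Or.inl (mul_mem hx' hy')
            · right
              have : a * (x * y) = x * (a * y) := by
                rw [← mul_assoc, hAc a ha x hx, mul_assoc]
              rw [this]; exact mul_mem hx' hy'
            · right
              rw [← mul_assoc]; exact mul_mem hx' hy'
            · left
              have : x * y = (a * x) * (a * y) := by
                rw [hAc a ha x hx, mul_assoc x a (a * y), ← mul_assoc a a y, hAs a ha, one_mul]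
              rw [this]; exact mul_mem hx' hy'
          inv_mem' := by
            rintro x ⟨hx, hx'⟩
            have hxi : x⁻¹ = x := inv_eq_of_mul_eq_one_left (hAs x hx)
            rw [hxi]; exact ⟨hx, hx'⟩ }
      have h1 : D ≤ D' := fun x hx => ⟨hDA hx, Or.inl hx⟩
      have h2 : D' ≤ D := by
        apply hDmax.2 _ h1
        refine ⟨fun x hx => hx.1, ?_⟩
        rintro x ⟨hxA, hx | hx⟩ hxT
        · exact hDC x hx hxT
        · exfalso
          refine hcon x hxA hxT (a * x) hx ?_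
          rw [hAc a ha x hxA, ← mul_assoc, hAs x hxA, one_mul]
      have h3 : a ∈ D := h2 ⟨ha, Or.inr (by rw [hAs a ha]; exact one_mem _)⟩
      exact hcon 1 (one_mem _) (one_mem _) a h3 (one_mul a).symm
    obtain ⟨th, hth1, hth2, hth3, hth4⟩ := exists_th TP PT AP hAc hAs _ D rfl hDA hDC
    -- the homomorphism `tau`
    have hex : ∀ a : A, ∃ t : T, ∃ b ∈ A, b ∈ normalizer (T : Set E) ∧ ∃ d ∈ D, (a : E) = b * d ∧
        ∀ x ∈ T, b * x * b⁻¹ = t * x * (t : E)⁻¹ := by
      intro a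
      obtain ⟨b, hb, hbT, d, hd, hbd⟩ := hcover a a.2
      obtain ⟨t, ht, htx⟩ := hinn b hb hbT
      exact ⟨⟨t, ht⟩, b, hb, hbT, d, hd, hbd, htx⟩
    choose tau btau hbA hbT dtau hdD hbd htau using hex
    have huniq : ∀ (a : A) (t : T) (b : E), b ∈ A → b ∈ normalizer (T : Set E) → (∃ d ∈ D, (a : E) = b * d) →
        (∀ x ∈ T, b * x * b⁻¹ = t * x * (t : E)⁻¹) → t = tau a := by
      rintro a t b hb hbN ⟨d, hd, hbd'⟩ hbx
      have h1 : b * d = btau a * dtau a := by rw [← hbd', hbd]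
      have h2 : (btau a)⁻¹ * b = dtau a * d⁻¹ := by
        rw [inv_mul_eq_iff_eq_mul, ← mul_assoc, ← h1, mul_inv_cancel_right]
      have h3 : (btau a)⁻¹ * b ∈ centralizer (T : Set E) := by
        rw [h2]
        apply hDC _ (mul_mem (hdD a) (inv_mem hd))
        rw [← h2]
        exact mul_mem (inv_mem (hbT a)) hbN
      have h4 : ((tau a : T) : E)⁻¹ * t = 1 := by
        apply center_trivial hnc (mul_mem (inv_mem (tau a).2) t.2)
        intro x hx
        have h5 := mem_centralizer_iff.1 h3 x hx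
        -- `t x t⁻¹ = b x b⁻¹ = btau x btau⁻¹ = tau x tau⁻¹`
        have h6 : b * x * b⁻¹ = btau a * x * (btau a)⁻¹ := by
          have e1 : b = btau a * ((btau a)⁻¹ * b) := by group
          calc b * x * b⁻¹ = btau a * (((btau a)⁻¹ * b) * x) * ((btau a)⁻¹ * b)⁻¹ * (btau a)⁻¹ := by group
            _ = btau a * (x * ((btau a)⁻¹ * b)) * ((btau a)⁻¹ * b)⁻¹ * (btau a)⁻¹ := by rw [h5]
            _ = _ := by group
        rw [hbx x hx, htau a x hx] at h6
        calc ((tau a : T) : E)⁻¹ * t * x = ((tau a : T) : E)⁻¹ * (t * x * (t : E)⁻¹) * t := by group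
          _ = ((tau a : T) : E)⁻¹ * ((tau a : T) * x * ((tau a : T) : E)⁻¹) * t := by rw [h6]
          _ = _ := by group
      apply Subtype.ext
      exact (inv_mul_eq_one.1 h4).symm
    have hmul : ∀ a b : A, tau (a * b) = tau a * tau b := by
      intro a b
      symm
      refine huniq (a * b) (tau a * tau b) (btau a * btau b) (mul_mem (hbA a) (hbA b)) (mul_mem (hbT a) (hbT b))
        ⟨dtau a * dtau b, mul_mem (hdD a) (hdD b), ?_⟩ ?_
      · rw [Subgroup.coe_mul, hbd a, hbd b]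
        have h1 : dtau a * btau b = btau b * dtau a := hAc _ (hDA (hdD a)) _ (hbA b)
        calc btau a * dtau a * (btau b * dtau b) = btau a * (dtau a * btau b) * dtau b := by group
          _ = _ := by rw [h1]; group
      · intro x hx
        have h1 : btau b * x * (btau b)⁻¹ ∈ T := (mem_normalizer_iff.1 (hbT b) x).1 hx
        calc btau a * btau b * x * (btau a * btau b)⁻¹ = btau a * (btau b * x * (btau b)⁻¹) * (btau a)⁻¹ := by group
          _ = tau a * (btau b * x * (btau b)⁻¹) * ((tau a : T) : E)⁻¹ := htau a _ h1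
          _ = tau a * (tau b * x * ((tau b : T) : E)⁻¹) * ((tau a : T) : E)⁻¹ := by rw [htau b x hx]
          _ = _ := by rw [Subgroup.coe_mul]; group
    refine ⟨MonoidHom.mk' tau hmul, th, ⟨⟨b₀, hb₀A⟩, ?_⟩, fun t => VV_le TP AP hDA (hth1 t), hth2, ?_⟩
    · intro h
      apply hb₀C
      obtain ⟨t, ht, htx⟩ := hinn b₀ hb₀A hb₀T
      have h1 : (⟨t, ht⟩ : T) = tau ⟨b₀, hb₀A⟩ :=
        huniq ⟨b₀, hb₀A⟩ ⟨t, ht⟩ b₀ hb₀A hb₀T ⟨1, one_mem _, (mul_one _).symm⟩ htx
      have h2 : t = 1 := by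
        have h3 : tau ⟨b₀, hb₀A⟩ = 1 := h
        rw [h3] at h1
        exact congrArg Subtype.val h1
      rw [mem_centralizer_iff]
      intro x hx
      have h3 := htx x hx
      rw [h2, one_mul, inv_one, mul_one] at h3
      exact (mul_inv_eq_iff_eq_mul.1 h3).symm
    · intro a t
      change (a : E) * th t * (a : E)⁻¹ = th (tau a * t * (tau a)⁻¹)
      have h1 : (a : E) * th t * (a : E)⁻¹ = btau a * th t * (btau a)⁻¹ := by
        have h2 := hth3 _ (hdD a) t
        rw [hbd a]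
        calc btau a * dtau a * th t * (btau a * dtau a)⁻¹ = btau a * (dtau a * th t) * (dtau a)⁻¹ * (btau a)⁻¹ := by group
          _ = btau a * (th t * dtau a) * (dtau a)⁻¹ * (btau a)⁻¹ := by rw [h2]
          _ = _ := by group
      rw [h1, hth4 _ (hbA a) (hbT a) t]
      congr 1
      apply Subtype.ext
      exact htau a t t.2

end H8.TH
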