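import Mathlib
import Cfsg.Prelude.Def_LocalEven
import Cfsg.Prelude.Def_Local

/-! Nonabelian minimal normal subgroups: a simple normal subgroup of a minimal normal subgroup. -/

set_option autoImplicit false

universe u

namespace H8.TH

open Subgroup Cfsg

theorem tt_equiv {X Y : Type*} [Group X] [Group Y] (e : X ≃* Y) (h : IsSuzukiOrPSL2OddPowerThree Y) :
    IsSuzukiOrPSL2OddPowerThree X := by
  rcases h with ⟨F, i1, i2, m, hm, hF, ⟨f⟩⟩ | ⟨F, i1, i2, n, hF, ⟨f⟩⟩
  · exact Or.inl ⟨F, i1, i2, m, hm, hF, ⟨e.trans f⟩⟩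
  · exact Or.inr ⟨F, i1, i2, n, hF, ⟨e.trans f⟩⟩

variable {E : Type u} [Group E]

/-- the conjugate of a subgroup -/
def cg (g : E) (T : Subgroup E) : Subgroup E := T.map (MulAut.conj g).toMonoidHom

theorem mem_cg {g : E} {T : Subgroup E} {x : E} : x ∈ cg g T ↔ g⁻¹ * x * g ∈ T := by
  constructor
  · rintro ⟨z, hz, rfl⟩
    change g⁻¹ * (g * z * g⁻¹) * g ∈ T
    have : g⁻¹ * (g * z * g⁻¹) * g = z := by group
    rw [this]; exact hz
  · intro h
    refine ⟨g⁻¹ * x * g, h, ?_⟩
    change g * (g⁻¹ * x * g) * g⁻¹ = x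
    group

/-- elementwise normality in `P` -/
def NIn (P T : Subgroup E) : Prop := T ≤ P ∧ ∀ p ∈ P, ∀ t ∈ T, p * t * p⁻¹ ∈ T

theorem NIn.le_normalizer {P T : Subgroup E} (h : NIn P T) : P ≤ normalizer (T : Set E) := by
  intro p hp
  rw [mem_normalizer_iff]
  intro x
  refine ⟨h.2 p hp x, fun hx => ?_⟩
  have := h.2 p⁻¹ (inv_mem hp) _ hx
  have e : p⁻¹ * (p * x * p⁻¹) * p⁻¹⁻¹ = x := by group
  rwa [e] at this

theorem NIn.inf {P T T' : Subgroup E} (h : NIn P T) (h' : NIn P T') : NIn P (T ⊓ T') :=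
  ⟨inf_le_left.trans h.1, fun p hp t ht => ⟨h.2 p hp t ht.1, h'.2 p hp t ht.2⟩⟩

theorem NIn.comm {P T T' : Subgroup E} (h : NIn P T) (h' : NIn P T') (hi : T ⊓ T' = ⊥) :
    ∀ x ∈ T, ∀ y ∈ T', x * y = y * x := by
  intro x hx y hy
  have h1 : x * y * x⁻¹ * y⁻¹ ∈ T := by
    have h2 := h.2 y (h'.1 hy) x⁻¹ (inv_mem hx)
    have e : x * y * x⁻¹ * y⁻¹ = x * (y * x⁻¹ * y⁻¹) := by group
    rw [e]; exact mul_mem hx h2
  have h2 : x * y * x⁻¹ * y⁻¹ ∈ T' := mul_mem (h'.2 x (h.1 hx) y hy) (inv_mem hy)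
  have h3 : x * y * x⁻¹ * y⁻¹ ∈ T ⊓ T' := ⟨h1, h2⟩
  rw [hi, mem_bot] at h3
  exact mul_inv_eq_iff_eq_mul.1 (mul_inv_eq_one.1 h3)

theorem NIn.cg {P T : Subgroup E} [hP : P.Normal] (h : NIn P T) (g : E) : NIn P (cg g T) := by
  constructor
  · intro x hx
    rw [mem_cg] at hx
    have := hP.conj_mem _ (h.1 hx) g
    have e : g * (g⁻¹ * x * g) * g⁻¹ = x := by group
    rwa [e] at this
  · intro p hp t ht
    rw [mem_cg] at ht ⊢
    have h1 : g⁻¹ * p * g ∈ P := by
      have := hP.conj_mem _ hp g⁻¹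
      rwa [inv_inv] at this
    have h2 := h.2 _ h1 _ ht
    have e : g⁻¹ * p * g * (g⁻¹ * t * g) * (g⁻¹ * p * g)⁻¹ = g⁻¹ * (p * t * p⁻¹) * g := by group
    rwa [e] at h2

theorem min_simple [Finite E] (hc : IsCompositionKGroupWith IsSuzukiOrPSL2OddPowerThree E)
    (P : Subgroup E) [P.Normal] (hmin : ∀ K : Subgroup E, K.Normal → K ≤ P → K = ⊥ ∨ K = P) (hne : P ≠ ⊥)
    (h2 : ¬ IsPGroup 2 P) (hodd : ¬ Odd (Nat.card P)) :
    ∃ T : Subgroup E, T ≤ P ∧ P ≤ normalizer (T : Set E) ∧ IsSimpleGroup T ∧ IsSuzukiOrPSL2OddPowerThree T ∧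
      ¬ (∀ a ∈ T, ∀ b ∈ T, a * b = b * a) ∧
      (∀ x ∈ P, ∃ t ∈ T, ∃ c ∈ P, c ∈ centralizer (T : Set E) ∧ x = t * c) ∧
      (∀ K : Subgroup E, (∀ (g : E), ∀ t ∈ T, g * t * g⁻¹ ∈ K) → P ≤ K) := by
  have hPn : P.Normal := inferInstance
  -- a minimal normal subgroup of `P`
  obtain ⟨T, hT⟩ := (Set.toFinite {T : Subgroup E | NIn P T ∧ T ≠ ⊥}).exists_minimal
    ⟨P, ⟨le_rfl, fun p hp t ht => mul_mem (mul_mem hp ht) (inv_mem hp)⟩, hne⟩
  obtain ⟨hTP, hTne⟩ := hT.1
  have hTmin : ∀ K, NIn P K → K ≤ T → K = ⊥ ∨ K = T := by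
    intro K hK hKT
    by_cases hK1 : K = ⊥
    · exact Or.inl hK1
    · exact Or.inr (le_antisymm hKT (hT.2 ⟨hK, hK1⟩ hKT))
  -- the conjugates
  have hdich : ∀ g : E, cg g T = T ∨ ∀ x ∈ T, ∀ y ∈ cg g T, x * y = y * x := by
    intro g
    rcases hTmin (T ⊓ cg g T) (hTP.inf (hTP.cg g)) inf_le_left with h | h
    · exact Or.inr (hTP.comm (hTP.cg g) h)
    · left
      have h1 : T ≤ cg g T := inf_eq_left.1 h
      have hcard : Nat.card (cg g T) = Nat.card T :=
        (Nat.card_congr (T.equivMapOfInjective (MulAut.conj g).toMonoidHom (MulAut.conj g).injective).toEquiv).symm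
      exact (Subgroup.eq_of_le_of_card_ge h1 hcard.le).symm
  -- the normal closure
  have hclo : normalClosure (T : Set E) = P := by
    have h1 : normalClosure (T : Set E) ≤ P := normalClosure_le_normal hTP.1
    rcases hmin _ normalClosure_normal h1 with h | h
    · exfalso
      apply hTne
      rw [eq_bot_iff]
      intro x hx
      have := subset_normalClosure (s := (T : Set E)) hx
      rwa [h] at this
    · exact h
  have hgen : ∀ K : Subgroup E, (∀ (g : E), ∀ t ∈ T, g * t * g⁻¹ ∈ K) → P ≤ K := by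
    intro K hK
    rw [← hclo]
    unfold normalClosure
    rw [closure_le]
    intro x hx
    obtain ⟨t, ht, hc⟩ := Group.mem_conjugatesOfSet_iff.1 hx
    obtain ⟨g, rfl⟩ := isConj_iff.1 hc
    exact hK g t ht
  -- decomposition
  have hdec : ∀ x ∈ P, ∃ t ∈ T, ∃ c ∈ P, c ∈ centralizer (T : Set E) ∧ x = t * c := by
    let K : Subgroup E :=
      { carrier := {x | ∃ t ∈ T, ∃ c ∈ P, c ∈ centralizer (T : Set E) ∧ x = t * c}
        one_mem' := ⟨1, one_mem _, 1, one_mem _, one_mem _, (one_mul 1).symm⟩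
        mul_mem' := by
          rintro _ _ ⟨t, ht, c, hcP, hcT, rfl⟩ ⟨s, hs, d, hdP, hdT, rfl⟩
          refine ⟨t * s, mul_mem ht hs, c * d, mul_mem hcP hdP, mul_mem hcT hdT, ?_⟩
          have h1 := mem_centralizer_iff.1 hcT s hs
          calc t * c * (s * d) = t * (c * s) * d := by group
            _ = t * (s * c) * d := by rw [h1]
            _ = _ := by group
        inv_mem' := by
          rintro _ ⟨t, ht, c, hcP, hcT, rfl⟩
          refine ⟨t⁻¹, inv_mem ht, c⁻¹, inv_mem hcP, inv_mem hcT, ?_⟩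
          have h1 := mem_centralizer_iff.1 (inv_mem hcT) t⁻¹ (inv_mem ht)
          rw [mul_inv_rev, h1] }
    have hK : P ≤ K := by
      apply hgen
      intro g t ht
      have hmem : g * t * g⁻¹ ∈ cg g T := ⟨t, ht, rfl⟩
      rcases hdich g with h | h
      · rw [h] at hmem
        exact ⟨_, hmem, 1, one_mem _, one_mem _, (mul_one _).symm⟩
      · refine ⟨1, one_mem _, _, (hTP.cg g).1 hmem, ?_, (one_mul _).symm⟩
        rw [mem_centralizer_iff]
        intro x hx
        exact h x hx _ hmem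
    exact fun x hx => hK hx
  -- simplicity
  have hsimple : IsSimpleGroup T := by
    have hnt : Nontrivial T := (Subgroup.nontrivial_iff_ne_bot T).2 hTne
    refine { exists_pair_ne := hnt.exists_pair_ne, eq_bot_or_eq_top_of_normal := ?_ }
    intro K hK
    have h1 : NIn P (K.map T.subtype) := by
      refine ⟨(map_subtype_le K).trans hTP.1, ?_⟩
      rintro p hp _ ⟨k, hk, rfl⟩
      obtain ⟨t, ht, c, hcP, hcT, rfl⟩ := hdec p hp
      have h2 := mem_centralizer_iff.1 hcT k k.2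
      refine ⟨⟨t, ht⟩ * k * ⟨t, ht⟩⁻¹, hK.conj_mem k hk _, ?_⟩
      change t * k * t⁻¹ = t * c * k * (t * c)⁻¹
      calc t * (k : E) * t⁻¹ = t * (k * c) * c⁻¹ * t⁻¹ := by group
        _ = t * (c * k) * c⁻¹ * t⁻¹ := by rw [h2]
        _ = _ := by group
    rcases hTmin _ h1 (map_subtype_le K) with h | h
    · left
      rwa [map_eq_bot_iff_of_injective _ T.subtype_injective] at h
    · right
      rw [eq_top_iff]
      intro x _
      have hx : (x : E) ∈ K.map T.subtype := by rw [h]; exact x.2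
      obtain ⟨y, hy, hyx⟩ := hx
      have : y = x := Subtype.ext hyx
      rwa [this] at hy
  -- noncommutativity
  have hnc : ¬ (∀ a ∈ T, ∀ b ∈ T, a * b = b * a) := by
    intro hab
    -- all conjugates commute with `T`
    have h1 : ∀ x ∈ T, ∀ y ∈ P, x * y = y * x := by
      intro x hx y hy
      obtain ⟨t, ht, c, hcP, hcT, rfl⟩ := hdec y hy
      have h3 := mem_centralizer_iff.1 hcT x hx
      calc x * (t * c) = (x * t) * c := by group
        _ = t * (x * c) := by rw [hab x hx t ht]; group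
        _ = _ := by rw [h3]; group
    have hPab : ∀ x ∈ P, ∀ y ∈ P, x * y = y * x := by
      have h3 : P ≤ centralizer (P : Set E) := by
        apply hgen
        intro g t ht
        rw [mem_centralizer_iff]
        intro y hy
        have hy' : g⁻¹ * y * g ∈ P := by
          have := hPn.conj_mem _ hy g⁻¹
          rwa [inv_inv] at this
        have h4 := h1 t ht _ hy'
        calc y * (g * t * g⁻¹) = g * ((g⁻¹ * y * g) * t) * g⁻¹ := by group
          _ = g * (t * (g⁻¹ * y * g)) * g⁻¹ := by rw [h4]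
          _ = _ := by group
      intro x hx y hy
      exact mem_centralizer_iff.1 (h3 hy) x hx
    -- a prime divisor of the order of `P`
    have hc1 : Nat.card P ≠ 1 := fun h => hne ((Subgroup.card_eq_one).1 h)
    obtain ⟨p, hp, hpd⟩ := Nat.exists_prime_and_dvd hc1
    have hf : Fact p.Prime := ⟨hp⟩
    let K : Subgroup E :=
      { carrier := {x | x ∈ P ∧ x ^ p = 1}
        one_mem' := ⟨one_mem _, one_pow _⟩
        mul_mem' := by
          rintro x y ⟨hx, hx'⟩ ⟨hy, hy'⟩
          refine ⟨mul_mem hx hy, ?_⟩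
          rw [Commute.mul_pow (hPab x hx y hy), hx', hy', one_mul]
        inv_mem' := by
          rintro x ⟨hx, hx'⟩
          exact ⟨inv_mem hx, by rw [inv_pow, hx', inv_one]⟩ }
    have hKn : K.Normal := by
      constructor
      rintro x ⟨hx, hx'⟩ g
      refine ⟨hPn.conj_mem x hx g, ?_⟩
      rw [conj_pow, hx']; group
    have hKP : P = K := by
      rcases hmin K hKn (fun x hx => hx.1) with h | h
      · exfalso
        obtain ⟨x, hx⟩ := exists_prime_orderOf_dvd_card' p hpd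
        have hxK : (x : E) ∈ K := by
          refine ⟨x.2, ?_⟩
          have := pow_orderOf_eq_one (x : E)
          rwa [Subgroup.orderOf_coe, hx] at this
        rw [h, mem_bot] at hxK
        have h3 : x = 1 := Subtype.ext hxK
        rw [h3, orderOf_one] at hx
        exact hp.one_lt.ne hx
      · exact h.symm
    have hPp : IsPGroup p P := by
      intro x
      refine ⟨1, ?_⟩
      rw [pow_one]
      have : (x : E) ∈ K := hKP ▸ x.2
      exact Subtype.ext this.2
    by_cases hp2 : p = 2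
    · subst hp2; exact h2 hPp
    · apply hodd
      obtain ⟨k, hk⟩ := hPp.exists_card_eq
      rw [hk]
      exact (hp.odd_of_ne_two hp2).pow
  have hTT : IsSuzukiOrPSL2OddPowerThree T := by
    have hsub : T.IsSubnormal := by
      refine IsSubnormal.step T P hTP.1 hPn.isSubnormal ?_
      constructor
      intro t ht g
      rw [mem_subgroupOf] at ht ⊢
      exact hTP.2 g g.2 t ht
    have hb : (⊥ : Subgroup T).Normal := inferInstance
    let e : T ⧸ (⊥ : Subgroup T) ≃* T := QuotientGroup.quotientBot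
    have hs : IsSimpleGroup (T ⧸ (⊥ : Subgroup T)) := by
      have := hsimple
      exact e.isSimpleGroup
    have hn : ¬ IsMulCommutative (T ⧸ (⊥ : Subgroup T)) := by
      intro h
      apply hnc
      intro a ha b hb
      have h3 : e.symm ⟨a, ha⟩ * e.symm ⟨b, hb⟩ = e.symm ⟨b, hb⟩ * e.symm ⟨a, ha⟩ := h.is_comm.comm _ _
      rw [← map_mul, ← map_mul] at h3
      exact congrArg Subtype.val (e.symm.injective h3)
    exact tt_equiv e.symm (hc T hsub ⊥ hs hn)
  exact ⟨T, hTP.1, hTP.le_normalizer, hsimple, hTT, hnc, hdec, hgen⟩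

end H8.TH
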