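import Cfsg.Agent.Lib.H8.ZassNormal
import Cfsg.Agent.Lib.H8.FieldAct
import Cfsg.Agent.Lib.H1.FrobSyl

/-!
Doubly transitive groups with a regular normal subgroup in which only the identity fixes three points.
-/

set_option autoImplicit false
set_option linter.unusedSectionVars false

namespace H8.ZassReg

open MulAction H8.Zass
open scoped Pointwise

/-- a Z-group with a fixed-point-free automorphism (conjugation by `x`) is abelian -/
theorem comm_of_fpf {G : Type*} [Group G] [Finite G] (K : Subgroup G) (hK : IsZGroup K) {x : G}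
    (hxn : x ∈ Subgroup.normalizer (K : Set G)) (hfp : ∀ k ∈ K, x * k = k * x → k = 1) :
    ∀ a ∈ K, ∀ b ∈ K, a * b = b * a := by
  have hcyc : IsCyclic (commutator K) := IsZGroup.isCyclic_commutator K
  -- action of the normaliser on the derived subgroup, as a subgroup of G
  let D : Subgroup G := (commutator K).map K.subtype
  have hDK : D ≤ K := Subgroup.map_subtype_le _
  have hDc : IsCyclic D := isCyclic_of_surjective
    ((commutator K).equivMapOfInjective K.subtype K.subtype_injective).toMonoidHom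
    ((commutator K).equivMapOfInjective K.subtype K.subtype_injective).surjective
  have hDn : ∀ g ∈ Subgroup.normalizer (K : Set G), ∀ d ∈ D, g * d * g⁻¹ ∈ D := by
    intro g hg d hd
    let ψ : K ≃* K :=
      { toFun := fun k => ⟨g * k * g⁻¹, (Subgroup.mem_normalizer_iff.1 hg k).1 k.2⟩
        invFun := fun k => ⟨g⁻¹ * k * g, by
          have := (Subgroup.mem_normalizer_iff.1 (Subgroup.inv_mem _ hg) k).1 k.2
          rwa [inv_inv] at this⟩
        left_inv := fun k => Subtype.ext (by
          show g⁻¹ * (g * k * g⁻¹) * g = k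
          group)
        right_inv := fun k => Subtype.ext (by
          show g * (g⁻¹ * k * g) * g⁻¹ = k
          group)
        map_mul' := fun a b => Subtype.ext (by
          show g * (a * b) * g⁻¹ = g * a * g⁻¹ * (g * b * g⁻¹)
          group) }
    obtain ⟨c, hc, rfl⟩ := Subgroup.mem_map.1 hd
    have hchar : (commutator K).map ψ.toMonoidHom = commutator K := by
      have := (inferInstance : (commutator K).Characteristic)
      exact Subgroup.characteristic_iff_map_eq.1 this ψ
    refine Subgroup.mem_map.2 ⟨ψ c, ?_, rfl⟩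
    rw [← hchar]
    exact Subgroup.mem_map_of_mem _ hc
  have hpow : ∀ g ∈ Subgroup.normalizer (K : Set G), ∃ n : ℤ, ∀ d ∈ D, g * d * g⁻¹ = d ^ n := by
    intro g hg
    let σ : D →* D :=
      { toFun := fun d => ⟨g * d * g⁻¹, hDn g hg d d.2⟩
        map_one' := Subtype.ext (by simp)
        map_mul' := fun a b => Subtype.ext (by simp) }
    obtain ⟨n, hn⟩ := MonoidHom.map_cyclic σ
    refine ⟨n, fun d hd => ?_⟩
    have := congrArg Subtype.val (hn ⟨d, hd⟩)
    exact this
  have hcommAct : ∀ g ∈ Subgroup.normalizer (K : Set G), ∀ h ∈ Subgroup.normalizer (K : Set G), ∀ d ∈ D,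
      (g * h) * d * (g * h)⁻¹ = (h * g) * d * (h * g)⁻¹ := by
    intro g hg h hh d hd
    obtain ⟨n, hn⟩ := hpow g hg
    obtain ⟨m, hm⟩ := hpow h hh
    have e1 : (g * h) * d * (g * h)⁻¹ = g * (h * d * h⁻¹) * g⁻¹ := by group
    have e2 : (h * g) * d * (h * g)⁻¹ = h * (g * d * g⁻¹) * h⁻¹ := by group
    rw [e1, e2, hm d hd, hn d hd, hn _ (D.zpow_mem hd m), hm _ (D.zpow_mem hd n), ← zpow_mul, ← zpow_mul, mul_comm]
  -- every element of K is u⁻¹ x u x⁻¹
  have hKn : K ≤ Subgroup.normalizer (K : Set G) := Subgroup.le_normalizer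
  let f : K → K := fun u => ⟨(u : G)⁻¹ * (x * u * x⁻¹), K.mul_mem (K.inv_mem u.2) ((Subgroup.mem_normalizer_iff.1 hxn u).1 u.2)⟩
  have hinj : Function.Injective f := by
    intro u v huv
    have h1 : (u : G)⁻¹ * (x * u * x⁻¹) = (v : G)⁻¹ * (x * v * x⁻¹) := congrArg Subtype.val huv
    have h2 : x * ((u : G) * (v : G)⁻¹) = ((u : G) * (v : G)⁻¹) * x := by
      calc x * ((u : G) * (v : G)⁻¹) = u * ((u : G)⁻¹ * (x * u * x⁻¹)) * (x * (v : G)⁻¹) := by group
        _ = u * ((v : G)⁻¹ * (x * v * x⁻¹)) * (x * (v : G)⁻¹) := by rw [h1]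
        _ = _ := by group
    have h3 := hfp _ (K.mul_mem u.2 (K.inv_mem v.2)) h2
    exact Subtype.ext (mul_inv_eq_one.1 h3)
  have hsurj := Finite.surjective_of_injective hinj
  have hcent : ∀ k ∈ K, ∀ d ∈ D, k * d = d * k := by
    intro k hk d hd
    obtain ⟨u, hu⟩ := hsurj ⟨k, hk⟩
    have h1 : (u : G)⁻¹ * (x * u * x⁻¹) = k := congrArg Subtype.val hu
    have h2 := hcommAct x hxn u (hKn u.2) (x⁻¹ * ((u : G)⁻¹ * d * u) * x) (by
      have h3 := hDn _ (Subgroup.inv_mem _ (hKn u.2)) d hd
      rw [inv_inv] at h3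
      have h4 := hDn _ (Subgroup.inv_mem _ hxn) _ h3
      rwa [inv_inv] at h4)
    -- (x u) y (x u)⁻¹ = (u x) y (u x)⁻¹ with y = x⁻¹ u⁻¹ d u x, so the right side is d
    have h5 : ((u : G) * x) * (x⁻¹ * ((u : G)⁻¹ * d * u) * x) * ((u : G) * x)⁻¹ = d := by group
    rw [h5] at h2
    -- conjugating by k' = x u x⁻¹ u⁻¹ fixes d for all d in D
    have h6 : (x * u * x⁻¹ * (u : G)⁻¹) * d * (x * u * x⁻¹ * (u : G)⁻¹)⁻¹ = d := by
      calc (x * u * x⁻¹ * (u : G)⁻¹) * d * (x * u * x⁻¹ * (u : G)⁻¹)⁻¹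
          = (x * (u : G)) * (x⁻¹ * ((u : G)⁻¹ * d * u) * x) * (x * (u : G))⁻¹ := by group
        _ = d := h2
    -- k = u⁻¹ (x u x⁻¹ u⁻¹) u
    have h7 : ∀ d' ∈ D, (x * u * x⁻¹ * (u : G)⁻¹) * d' * (x * u * x⁻¹ * (u : G)⁻¹)⁻¹ = d' := by
      intro d' hd'
      have h2 := hcommAct x hxn u (hKn u.2) (x⁻¹ * ((u : G)⁻¹ * d' * u) * x) (by
        have h3 := hDn _ (Subgroup.inv_mem _ (hKn u.2)) d' hd'
        rw [inv_inv] at h3
        have h4 := hDn _ (Subgroup.inv_mem _ hxn) _ h3
        rwa [inv_inv] at h4)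
      have h5 : ((u : G) * x) * (x⁻¹ * ((u : G)⁻¹ * d' * u) * x) * ((u : G) * x)⁻¹ = d' := by group
      rw [h5] at h2
      calc (x * u * x⁻¹ * (u : G)⁻¹) * d' * (x * u * x⁻¹ * (u : G)⁻¹)⁻¹
          = (x * (u : G)) * (x⁻¹ * ((u : G)⁻¹ * d' * u) * x) * (x * (u : G))⁻¹ := by group
        _ = d' := h2
    have h8 := h7 ((u : G) * d * (u : G)⁻¹) (hDn _ (hKn u.2) d hd)
    have h9 : k * d * k⁻¹ = d := by
      rw [← h1]
      calc (u : G)⁻¹ * (x * u * x⁻¹) * d * ((u : G)⁻¹ * (x * u * x⁻¹))⁻¹
          = (u : G)⁻¹ * ((x * u * x⁻¹ * (u : G)⁻¹) * ((u : G) * d * (u : G)⁻¹) * (x * u * x⁻¹ * (u : G)⁻¹)⁻¹) * u := by group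
        _ = (u : G)⁻¹ * ((u : G) * d * (u : G)⁻¹) * u := by rw [h8]
        _ = d := by group
    rw [mul_inv_eq_iff_eq_mul] at h9
    exact h9
  have hle : (Abelianization.of : K →* Abelianization K).ker ≤ Subgroup.center K := by
    intro d hd
    rw [Abelianization.ker_of] at hd
    rw [Subgroup.mem_center_iff]
    intro k
    apply Subtype.ext
    exact hcent k k.2 d (Subgroup.mem_map_of_mem _ hd)
  have hab : IsCyclic (Abelianization K) := inferInstance
  intro a ha b hb
  have := (MonoidHom.isMulCommutative_of_isCyclic_of_ker_le_center (Abelianization.of : K →* Abelianization K) hle).is_comm.comm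
    ⟨a, ha⟩ ⟨b, hb⟩
  exact congrArg Subtype.val this

/-- the kernel in a doubly transitive group in which only the identity fixes three points -/
theorem exists_ker {G Ω : Type*} [Group G] [Finite G] [MulAction G Ω] [Fintype Ω]
    (h2 : IsMultiplyPretransitive G Ω 2)
    (h3 : ∀ g : G, ∀ a b c : Ω, a ≠ b → b ≠ c → a ≠ c → g • a = a → g • b = b → g • c = c → g = 1) {a b : Ω}
    (hab : a ≠ b) : ∃ K : Subgroup G, K ≤ stabilizer G a ∧ (∀ k ∈ K, k ≠ 1 → ∀ y, y ≠ a → k • y ≠ y) ∧
      (∀ c d : Ω, c ≠ a → d ≠ a → ∃ k ∈ K, k • c = d) ∧ stabilizer G a ≤ Subgroup.normalizer (K : Set G) := by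
  let X := {y : Ω // y ≠ a}
  have hinv : ∀ (g : stabilizer G a) (c : Ω), c ≠ a → (g : G) • c ≠ a := by
    intro g c hc h
    have h1 : (g : G) • a = a := g.2
    exact hc (smul_left_cancel (g : G) (h.trans h1.symm))
  let _ : MulAction (stabilizer G a) X :=
    { smul := fun g c => ⟨(g : G) • (c : Ω), hinv g c c.2⟩
      one_smul := fun c => Subtype.ext (one_smul _ (c : Ω))
      mul_smul := fun g g' c => Subtype.ext (mul_smul (g : G) (g' : G) (c : Ω)) }
  have hne : Nonempty X := ⟨⟨b, hab.symm⟩⟩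
  have htr : IsPretransitive (stabilizer G a) X := by
    refine ⟨fun x y => ?_⟩
    obtain ⟨g, hg1, hg2⟩ := is_two_pretransitive_iff.1 h2 (Ne.symm x.2) (Ne.symm y.2)
    exact ⟨⟨g, hg1⟩, Subtype.ext hg2⟩
  obtain ⟨M, hM, hMt, -⟩ := exists_regular htr (fun g hg x y hx hy => by
    by_contra hxy
    apply hg
    apply Subtype.ext
    exact h3 g a x y (Ne.symm x.2) (fun h => hxy (Subtype.ext h)) (Ne.symm y.2) g.2 (congrArg Subtype.val hx)
      (congrArg Subtype.val hy))
  refine ⟨M.map (stabilizer G a).subtype, Subgroup.map_subtype_le _, ?_, ?_, ?_⟩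
  · intro k hk hk1 y hy hky
    obtain ⟨m, hm, rfl⟩ := Subgroup.mem_map.1 hk
    rcases (hM m).1 hm with h | h
    · exact hk1 (congrArg Subtype.val h)
    · exact h ⟨y, hy⟩ (Subtype.ext hky)
  · intro c d hc hd
    obtain ⟨m, hm⟩ := MulAction.exists_smul_eq M (⟨c, hc⟩ : X) ⟨d, hd⟩
    exact ⟨_, Subgroup.mem_map_of_mem _ m.2, congrArg Subtype.val hm⟩
  · have key : ∀ g : G, g • a = a → ∀ k, k ∈ M.map (stabilizer G a).subtype →
        g * k * g⁻¹ ∈ M.map (stabilizer G a).subtype := by
      intro g hg k hk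
      obtain ⟨m, hm, rfl⟩ := Subgroup.mem_map.1 hk
      refine Subgroup.mem_map.2 ⟨⟨g, hg⟩ * m * (⟨g, hg⟩ : stabilizer G a)⁻¹, ?_, rfl⟩
      rw [hM] at hm ⊢
      rcases hm with h | h
      · left
        rw [h]; group
      · right
        intro x hx
        apply h ((⟨g, hg⟩ : stabilizer G a)⁻¹ • x)
        rw [mul_smul, mul_smul] at hx
        exact (inv_smul_eq_iff.2 hx.symm).symm
    intro g hg
    rw [Subgroup.mem_normalizer_iff]
    intro k
    constructor
    · exact key g hg k
    · intro hk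
      have hg' : g⁻¹ • a = a := by rw [inv_smul_eq_iff]; exact (mem_stabilizer_iff.1 hg).symm
      have := key g⁻¹ hg' _ hk
      have e : g⁻¹ * (g * k * g⁻¹) * g⁻¹⁻¹ = k := by group
      rwa [e] at this

theorem main {G Ω : Type*} [Group G] [MulAction G Ω] [Fintype Ω] [FaithfulSMul G Ω]
    (h2 : IsMultiplyPretransitive G Ω 2)
    (h3 : ∀ g : G, ∀ a b c : Ω, a ≠ b → b ≠ c → a ≠ c → g • a = a → g • b = b → g • c = c → g = 1)
    (hfix : ∃ g : G, g ≠ 1 ∧ ∃ a b : Ω, a ≠ b ∧ g • a = a ∧ g • b = b)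
    (N : Subgroup G) [hNn : N.Normal] (hNt : IsPretransitive N Ω)
    (hNr : ∀ a : Ω, stabilizer N a = ⊥) : ∃ p : ℕ, p.Prime ∧ Fintype.card Ω = 2 ^ p := by
  classical
  have hfin : Finite G := Finite.of_injective (MulAction.toPermHom G Ω) MulAction.toPerm_injective
  obtain ⟨g, hg1, a, b, hab, hga, hgb⟩ := hfix
  have hnt : Nontrivial Ω := ⟨a, b, hab⟩
  obtain ⟨ℓ, hℓ, hd⟩ := Nat.exists_prime_and_dvd (n := orderOf g) (fun h => hg1 (orderOf_eq_one_iff.1 h))
  obtain ⟨x, hxa, hxb, hxo⟩ : ∃ x : G, x • a = a ∧ x • b = b ∧ orderOf x = ℓ := by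
    obtain ⟨c, hc⟩ := hd
    have hc0 : c ≠ 0 := by
      rintro rfl
      rw [mul_zero] at hc
      exact (orderOf_pos g).ne' hc
    refine ⟨g ^ c, (stabilizer G a).pow_mem hga c, (stabilizer G b).pow_mem hgb c, ?_⟩
    rw [orderOf_pow_of_dvd hc0 (hc ▸ dvd_mul_left c ℓ), hc, Nat.mul_div_cancel _ (Nat.pos_of_ne_zero hc0)]
  have hx1 : x ≠ 1 := by
    rintro rfl
    rw [orderOf_one] at hxo
    exact hℓ.one_lt.ne hxo
  have hFix : ∀ c : Ω, x • c = c → c = a ∨ c = b := by
    intro c hc
    by_contra h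
    push Not at h
    exact hx1 (h3 x a b c hab (Ne.symm h.2) (Ne.symm h.1) hxa hxb hc)
  obtain ⟨v, hvN, hvab⟩ := exists_of_regular hNt a b
  have hv1 : v ≠ 1 := by
    rintro rfl
    rw [one_smul] at hvab
    exact hab hvab
  have hxinva : x⁻¹ • a = a := by rw [inv_smul_eq_iff, hxa]
  -- the element of N is determined by the image of a
  have hdet : ∀ m ∈ N, ∀ n ∈ N, m • a = n • a → m = n := by
    intro m hm n hn h
    have h1 : (n⁻¹ * m) • a = a := by rw [mul_smul, h, inv_smul_smul]
    exact (inv_mul_eq_one.1 (eq_one_of_regular hNr (N.mul_mem (N.inv_mem hn) hm) h1)).symm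
  have hxv : x * v * x⁻¹ = v := by
    apply hdet _ (hNn.conj_mem _ hvN x) _ hvN
    rw [mul_smul, mul_smul, hxinva, hvab, hxb]
  have hCN : ∀ n ∈ N, x * n * x⁻¹ = n → n = 1 ∨ n = v := by
    intro n hn hxn
    have h1 : x • (n • a) = n • a := by
      calc x • (n • a) = (x * n * x⁻¹) • (x • a) := by rw [← mul_smul, ← mul_smul]; group
        _ = n • a := by rw [hxn, hxa]
    rcases hFix _ h1 with h | h
    · left
      exact eq_one_of_regular hNr hn h
    · right
      exact hdet n hn v hvN (h.trans hvab.symm)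
  have hv2 : v ^ 2 = 1 := by
    have h1 : x * v ^ 2 * x⁻¹ = v ^ 2 := by
      rw [← conj_pow, hxv]
    rcases hCN _ (N.pow_mem hvN 2) h1 with h | h
    · exact h
    · exfalso
      apply hv1
      rw [sq, mul_eq_left] at h
      exact h
  obtain ⟨K, hKa, hKfix, hKtr, hKn⟩ := exists_ker h2 h3 hab
  have hKt : ∀ n ∈ N, ∀ m ∈ N, n ≠ 1 → m ≠ 1 → ∃ k ∈ K, k * n * k⁻¹ = m := by
    intro n hn m hm hn1 hm1
    have h1 : n • a ≠ a := fun h => hn1 (eq_one_of_regular hNr hn h)
    have h1' : m • a ≠ a := fun h => hm1 (eq_one_of_regular hNr hm h)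
    obtain ⟨k, hk, hkk⟩ := hKtr _ _ h1 h1'
    refine ⟨k, hk, hdet _ (hNn.conj_mem _ hn k) _ hm ?_⟩
    have hka : k⁻¹ • a = a := by rw [inv_smul_eq_iff]; exact (hKa hk).symm
    rw [mul_smul, mul_smul, hka, hkk]
  have hxn : x ∈ Subgroup.normalizer (K : Set G) := hKn hxa
  have hCK : ∀ k ∈ K, x * k = k * x → k = 1 := by
    intro k hk hxk
    by_contra hk1
    have h1 : x • (k • b) = k • b := by rw [← mul_smul, hxk, mul_smul, hxb]
    rcases hFix _ h1 with h | h
    · have hka : k • a = a := hKa hk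
      exact hab.symm (smul_left_cancel k (h.trans hka.symm))
    · exact hKfix k hk hk1 b hab.symm h
  -- orders
  have hcardN : Nat.card N = Fintype.card Ω := by
    rw [← Nat.card_eq_fintype_card]
    apply Nat.card_congr
    refine Equiv.ofBijective (fun n : N => (n : G) • a) ⟨?_, ?_⟩
    · intro m n hmn
      exact Subtype.ext (hdet m m.2 n n.2 hmn)
    · intro c
      obtain ⟨n, hn, hnc⟩ := exists_of_regular hNt a c
      exact ⟨⟨n, hn⟩, hnc⟩
  have hcardK : Nat.card K = Fintype.card Ω - 1 := by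
    have h1 : Fintype.card {y : Ω // y ≠ a} = Fintype.card Ω - 1 := by
      rw [Fintype.card_subtype_compl, Fintype.card_subtype_eq]
    rw [← h1, ← Nat.card_eq_fintype_card]
    apply Nat.card_congr
    refine Equiv.ofBijective (fun k : K => (⟨(k : G) • b, fun h => hab.symm (smul_left_cancel (k : G)
      (h.trans (show (k : G) • a = a from hKa k.2).symm))⟩ : {y : Ω // y ≠ a})) ⟨?_, ?_⟩
    · intro m n hmn
      have h2 : (m : G) • b = (n : G) • b := congrArg Subtype.val hmn
      by_contra hne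
      apply hKfix _ (K.mul_mem (K.inv_mem n.2) m.2) _ b hab.symm
      · rw [mul_smul, h2, inv_smul_smul]
      · intro h
        exact hne (Subtype.ext (inv_mul_eq_one.1 h).symm)
    · rintro ⟨c, hc⟩
      obtain ⟨k, hk, hkc⟩ := hKtr b c hab.symm hc
      exact ⟨⟨k, hk⟩, Subtype.ext hkc⟩
  have hKodd : ¬ 2 ∣ Nat.card K := by
    have h1 : orderOf v = 2 := by
      have : Fact (Nat.Prime 2) := ⟨Nat.prime_two⟩
      exact orderOf_eq_prime hv2 hv1
    have h4 := orderOf_dvd_natCard (⟨v, hvN⟩ : N)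
    rw [← Subgroup.orderOf_coe, h1, hcardN] at h4
    have h5 : 0 < Fintype.card Ω := Fintype.card_pos
    rw [hcardK]
    omega
  have hNbot : N ≠ ⊥ := by
    intro h
    rw [h, Subgroup.mem_bot] at hvN
    exact hv1 hvN
  have hZK : IsZGroup K := by
    rw [isZGroup_iff]
    intro p hp P
    have hfp : Fact p.Prime := ⟨hp⟩
    have hPG : IsPGroup p ((P : Subgroup K).map K.subtype) := P.2.map _
    have hPn : (P : Subgroup K).map K.subtype ≤ Subgroup.normalizer (N : Set G) := by
      rw [Subgroup.normalizer_eq_top]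
      exact le_top
    have hc := H1.FrobSyl.cyclic_or_quaternion ((P : Subgroup K).map K.subtype) N hNbot hPn (by
      intro k hk hk1
      obtain ⟨k', hk', rfl⟩ := Subgroup.mem_map.1 hk
      rw [eq_bot_iff]
      intro n hn
      obtain ⟨hnN, hnc⟩ := Subgroup.mem_inf.1 hn
      rw [Subgroup.mem_centralizer_singleton_iff] at hnc
      rw [Subgroup.mem_bot]
      by_contra hn1
      have h6 : n • a ≠ a := fun h => hn1 (eq_one_of_regular hNr hnN h)
      apply hKfix _ k'.2 hk1 _ h6
      have h7 : (k' : G) • a = a := hKa k'.2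
      show (k' : G) • (n • a) = n • a
      rw [← mul_smul, show (k' : G) * n = n * k' from hnc.symm, mul_smul, h7]) p hPG
    rcases hc with hc | ⟨hp2, -⟩
    · exact isCyclic_of_injective
        ((P : Subgroup K).equivMapOfInjective K.subtype K.subtype_injective).toMonoidHom
        ((P : Subgroup K).equivMapOfInjective K.subtype K.subtype_injective).injective
    · subst hp2
      have h1 : Nat.card P = 1 := by
        obtain ⟨n, hn⟩ := IsPGroup.iff_card.1 P.2
        rcases Nat.eq_zero_or_pos n with h | h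
        · rw [hn, h, pow_zero]
        · exfalso
          apply hKodd
          have h8 : 2 ∣ Nat.card P := by rw [hn]; exact dvd_pow_self 2 h.ne'
          exact h8.trans (Subgroup.card_subgroup_dvd_card _)
      have h2 : Subsingleton P := (Nat.card_eq_one_iff_unique.1 h1).1
      exact isCyclic_of_subsingleton
  have hKcomm := comm_of_fpf K hZK hxn hCK
  -- apply the field lemma
  let instN : CommGroup N :=
    { (inferInstance : Group N) with
      mul_comm := fun m n => Subtype.ext (comm_of_regular h2 hNt hNr m.2 n.2) }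
  let act : DistribMulAction G (Additive N) :=
    { smul := fun g n => Additive.ofMul (MulAut.conjNormal g (Additive.toMul n))
      one_smul := fun n => by
        show Additive.ofMul (MulAut.conjNormal (1 : G) (Additive.toMul n)) = n
        rw [map_one]; rfl
      mul_smul := fun g h n => by
        show Additive.ofMul (MulAut.conjNormal (g * h) (Additive.toMul n)) = _
        rw [map_mul]; rfl
      smul_zero := fun g => by
        show Additive.ofMul (MulAut.conjNormal g 1) = 0
        rw [map_one]; rfl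
      smul_add := fun g m n => by
        show Additive.ofMul (MulAut.conjNormal g (Additive.toMul m * Additive.toMul n)) = _
        rw [map_mul]; rfl }
  have hact : ∀ (g : G) (n : N), (Additive.toMul (g • Additive.ofMul n) : N) = MulAut.conjNormal g n := fun _ _ => rfl
  have hcoe : ∀ (g : G) (n : Additive N), ((Additive.toMul (g • n) : N) : G) = g * ((Additive.toMul n : N) : G) * g⁻¹ :=
    fun _ _ => rfl
  have hres := FieldAct.card_eq_two_pow (Γ := G) (V := Additive N) K hKcomm (by
    intro m n hm hn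
    obtain ⟨k, hk, hkk⟩ := hKt (Additive.toMul m : N) (Additive.toMul m : N).2 (Additive.toMul n : N)
      (Additive.toMul n : N).2 (fun h => hm (by
        apply Additive.toMul.injective
        exact Subtype.ext h)) (fun h => hn (by
        apply Additive.toMul.injective
        exact Subtype.ext h))
    refine ⟨k, hk, ?_⟩
    apply Additive.toMul.injective
    apply Subtype.ext
    rw [hcoe]
    exact hkk) x hxn hℓ hxo (by
    intro g hg hgf
    have hgz : g • a = a := (Subgroup.zpowers_le.2 (show x ∈ stabilizer G a from hxa)) hg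
    apply FaithfulSMul.eq_of_smul_eq_smul (α := Ω)
    intro c
    obtain ⟨n, hn, rfl⟩ := exists_of_regular hNt a c
    have h6 : g * n * g⁻¹ = n := by
      have := congrArg (fun z : Additive N => ((Additive.toMul z : N) : G)) (hgf (Additive.ofMul ⟨n, hn⟩))
      exact this
    rw [mul_inv_eq_iff_eq_mul] at h6
    rw [one_smul, ← mul_smul, h6, mul_smul, hgz]) (v := Additive.ofMul ⟨v, hvN⟩) (by
    intro h
    apply hv1
    have := congrArg (fun z : Additive N => ((Additive.toMul z : N) : G)) h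
    exact this) (by
    intro w hw
    have h6 : x * ((Additive.toMul w : N) : G) * x⁻¹ = ((Additive.toMul w : N) : G) := by
      have := congrArg (fun z : Additive N => ((Additive.toMul z : N) : G)) hw
      exact this
    rcases hCN _ (Additive.toMul w : N).2 h6 with h | h
    · left
      apply Additive.toMul.injective
      exact Subtype.ext h
    · right
      apply Additive.toMul.injective
      exact Subtype.ext h) (by
    apply Additive.toMul.injective
    apply Subtype.ext
    rw [hcoe]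
    exact hxv)
  refine ⟨ℓ, hℓ, ?_⟩
  rw [← hres, ← hcardN]
  rfl

end H8.ZassReg
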